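import Mathlib

/-!
Scalar lemmas over finite fields: binary quadratic forms `α x² + β y² = γ`, also with `x, y ≠ 0`; squares.
-/

set_option autoImplicit false
set_option linter.unusedSectionVars false

namespace Cfsg.Agent.H885.C2Scalar

variable {F : Type*} [Field F]

/-- An element outside a small finite set. -/
theorem exists_avoid [Finite F] (s : Finset F) (h : s.card < Nat.card F) : ∃ x, x ∉ s := by
  have : Fintype F := Fintype.ofFinite F
  rw [Nat.card_eq_fintype_card, ← Finset.card_univ] at h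
  obtain ⟨x, -, hx⟩ := Finset.exists_mem_notMem_of_card_lt_card h
  exact ⟨x, hx⟩

/-- Binary forms over finite fields are universal. -/
theorem exists_binary [Finite F] {α β : F} (hα : α ≠ 0) (hβ : β ≠ 0) (γ : F) :
    ∃ x y : F, α * x ^ 2 + β * y ^ 2 = γ := by
  have : Fintype F := Fintype.ofFinite F
  by_cases h2 : ringChar F = 2
  · obtain ⟨r, hr⟩ := FiniteField.isSquare_of_char_two h2 (γ * α⁻¹)
    refine ⟨r, 0, ?_⟩
    have : r ^ 2 = γ * α⁻¹ := by rw [hr]; ring
    rw [this]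
    field_simp
    ring
  · have hodd : Fintype.card F % 2 = 1 := FiniteField.odd_card_of_char_ne_two h2
    obtain ⟨a, b, hab⟩ := FiniteField.exists_root_sum_quadratic (R := F)
      (f := Polynomial.C α * Polynomial.X ^ 2)
      (g := Polynomial.C β * Polynomial.X ^ 2 - Polynomial.C γ)
      (by rw [Polynomial.degree_C_mul hα, Polynomial.degree_X_pow]; rfl)
      (by
        rw [Polynomial.degree_sub_C]
        · rw [Polynomial.degree_C_mul hβ, Polynomial.degree_X_pow]; rfl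
        · rw [Polynomial.degree_C_mul hβ, Polynomial.degree_X_pow]
          decide) hodd
    refine ⟨a, b, ?_⟩
    simp only [Polynomial.eval_mul, Polynomial.eval_C, Polynomial.eval_pow, Polynomial.eval_X,
      Polynomial.eval_sub] at hab
    linear_combination hab

/-- Parametrisation of the conic `α x² + β y² = α x₀²`. -/
theorem conic_param {α β x₀ m : F} (h : α + β * m ^ 2 ≠ 0) :
    α * (x₀ * (α - β * m ^ 2) / (α + β * m ^ 2)) ^ 2 +
      β * (2 * α * x₀ * m / (α + β * m ^ 2)) ^ 2 = α * x₀ ^ 2 := by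
  field_simp
  ring

/-- The set of the `m` with `β m² = c` has at most two elements. -/
theorem exists_sqrt_set [Finite F] (β c : F) (hβ : β ≠ 0) :
    ∃ s : Finset F, s.card ≤ 2 ∧ (∀ m, β * m ^ 2 = c → m ∈ s) ∧
      (s.Nonempty → ∃ m, β * m ^ 2 = c) := by
  classical
  by_cases h : ∃ m, β * m ^ 2 = c
  · obtain ⟨m, hm⟩ := h
    refine ⟨{m, -m}, Finset.card_le_two, fun m' hm' => ?_, fun _ => ⟨m, hm⟩⟩
    have h1 : (m' - m) * (m' + m) = 0 := by
      have : β * ((m' - m) * (m' + m)) = 0 := by linear_combination hm' - hm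
      rcases mul_eq_zero.1 this with h | h
      · exact absurd h hβ
      · exact h
    rcases mul_eq_zero.1 h1 with h | h
    · simp [sub_eq_zero.1 h]
    · simp [eq_neg_of_add_eq_zero_left h]
  · push Not at h
    exact ⟨∅, by simp, fun m hm => absurd hm (h m), fun h => absurd h (by simp)⟩

/-- Points with nonzero coordinates on a conic through `(x₀, 0)`. -/
theorem exists_conic_aux [Finite F] (h2 : (2 : F) ≠ 0) {α β x₀ : F} (hα : α ≠ 0) (hβ : β ≠ 0)
    (hx₀ : x₀ ≠ 0)
    (hF : 7 ≤ Nat.card F ∨ (4 ≤ Nat.card F ∧ ∀ m : F, β * m ^ 2 ≠ α) ∨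
      (4 ≤ Nat.card F ∧ ∀ m : F, β * m ^ 2 ≠ -α)) :
    ∃ x y : F, x ≠ 0 ∧ y ≠ 0 ∧ α * x ^ 2 + β * y ^ 2 = α * x₀ ^ 2 := by
  classical
  obtain ⟨s, hs, hs', hs''⟩ := exists_sqrt_set β α hβ
  obtain ⟨r, hr, hr', hr''⟩ := exists_sqrt_set β (-α) hβ
  have hcard : (insert 0 (s ∪ r)).card < Nat.card F := by
    have h1 : (insert 0 (s ∪ r)).card ≤ (s ∪ r).card + 1 := Finset.card_insert_le _ _
    have h3 := Finset.card_union_le s r
    rcases hF with h | ⟨h, h'⟩ | ⟨h, h'⟩
    · omega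
    · have : s = ∅ := by
        by_contra hne
        obtain ⟨m, hm⟩ := hs'' (Finset.nonempty_iff_ne_empty.2 hne)
        exact h' m hm
      rw [this, Finset.card_empty] at h3
      rw [this] at h1 ⊢
      omega
    · have : r = ∅ := by
        by_contra hne
        obtain ⟨m, hm⟩ := hr'' (Finset.nonempty_iff_ne_empty.2 hne)
        exact h' m hm
      rw [this, Finset.card_empty] at h3
      rw [this] at h1 ⊢
      omega
  obtain ⟨m, hm⟩ := exists_avoid _ hcard
  simp only [Finset.mem_insert, Finset.mem_union, not_or] at hm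
  obtain ⟨hm0, hms, hmr⟩ := hm
  have h3 : α + β * m ^ 2 ≠ 0 := fun h => hmr (hr' m (by linear_combination h))
  have h4 : α - β * m ^ 2 ≠ 0 := fun h => hms (hs' m (by linear_combination -h))
  refine ⟨x₀ * (α - β * m ^ 2) / (α + β * m ^ 2), 2 * α * x₀ * m / (α + β * m ^ 2),
    div_ne_zero (mul_ne_zero hx₀ h4) h3,
    div_ne_zero (mul_ne_zero (mul_ne_zero (mul_ne_zero h2 hα) hx₀) hm0) h3, conic_param h3⟩

/-- In a field with `q ≥ 5` elements, `q` odd, `α x² + β y² = γ` has a solution with `x, y ≠ 0`, unless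
`q = 5` and both `γ / α` and `γ / β` are squares. -/
theorem exists_conic [Finite F] (h2 : (2 : F) ≠ 0) {α β γ : F} (hα : α ≠ 0) (hβ : β ≠ 0)
    (hγ : γ ≠ 0) (hF : 4 ≤ Nat.card F)
    (hF' : 7 ≤ Nat.card F ∨ (∀ m : F, α * m ^ 2 ≠ γ) ∨ (∀ m : F, β * m ^ 2 ≠ γ)) :
    ∃ x y : F, x ≠ 0 ∧ y ≠ 0 ∧ α * x ^ 2 + β * y ^ 2 = γ := by
  obtain ⟨x, y, hxy⟩ := exists_binary hα hβ γ
  by_cases hy : y = 0
  · subst hy
    have hx : x ≠ 0 := by
      rintro rfl
      apply hγ
      rw [← hxy]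
      ring
    have hxy' : α * x ^ 2 = γ := by rw [← hxy]; ring
    have hF'' : 7 ≤ Nat.card F ∨ (4 ≤ Nat.card F ∧ ∀ m : F, β * m ^ 2 ≠ α) ∨
      (4 ≤ Nat.card F ∧ ∀ m : F, β * m ^ 2 ≠ -α) := by
      rcases hF' with h | h | h
      · exact Or.inl h
      · exact absurd hxy' (h x)
      · refine Or.inr (Or.inl ⟨hF, fun m hm => h (m * x) ?_⟩)
        rw [← hxy', ← hm]
        ring
    obtain ⟨x', y', h1, h3, h4⟩ := exists_conic_aux h2 hα hβ hx hF''
    exact ⟨x', y', h1, h3, h4.trans hxy'⟩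
  · by_cases hx : x = 0
    · subst hx
      have hxy' : β * y ^ 2 = γ := by rw [← hxy]; ring
      have hF'' : 7 ≤ Nat.card F ∨ (4 ≤ Nat.card F ∧ ∀ m : F, α * m ^ 2 ≠ β) ∨
        (4 ≤ Nat.card F ∧ ∀ m : F, α * m ^ 2 ≠ -β) := by
        rcases hF' with h | h | h
        · exact Or.inl h
        · refine Or.inr (Or.inl ⟨hF, fun m hm => h (m * y) ?_⟩)
          rw [← hxy', ← hm]
          ring
        · exact absurd hxy' (h y)
      obtain ⟨x', y', h1, h3, h4⟩ := exists_conic_aux h2 hβ hα hy hF''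
      exact ⟨y', x', h3, h1, by rw [← hxy', ← h4]; ring⟩
    · exact ⟨x, y, hx, hy, hxy⟩

/-- Among three nonzero elements of a finite field two differ by a square factor. -/
theorem exists_sq_of_three [Finite F] {a b c : F} (ha : a ≠ 0) (hb : b ≠ 0) (hc : c ≠ 0) :
    (∃ m : F, m ≠ 0 ∧ m ^ 2 * a = b) ∨ (∃ m : F, m ≠ 0 ∧ m ^ 2 * a = c) ∨
      (∃ m : F, m ≠ 0 ∧ m ^ 2 * b = c) := by
  have : Fintype F := Fintype.ofFinite F
  have key : ∀ {u v : F}, u ≠ 0 → v ≠ 0 → IsSquare (u * v) → ∃ m : F, m ≠ 0 ∧ m ^ 2 * u = v := by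
    rintro u v hu hv ⟨r, hr⟩
    have hr0 : r ≠ 0 := by
      rintro rfl
      exact mul_ne_zero hu hv (by rw [hr]; ring)
    refine ⟨r / u, div_ne_zero hr0 hu, ?_⟩
    field_simp
    linear_combination -hr
  have hsq : ∀ u v : F, u ≠ 0 → v ≠ 0 → ¬ IsSquare u → ¬ IsSquare v → IsSquare (u * v) := by
    classical
    intro u v hu hv h1 h3
    by_cases h2 : ringChar F = 2
    · exact FiniteField.isSquare_of_char_two h2 _
    · have h4 := (quadraticChar_neg_one_iff_not_isSquare (F := F)).2 h1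
      have h5 := (quadraticChar_neg_one_iff_not_isSquare (F := F)).2 h3
      have h6 : quadraticChar F (u * v) = 1 := by rw [map_mul, h4, h5]; norm_num
      exact (quadraticChar_one_iff_isSquare (mul_ne_zero hu hv)).1 h6
  by_cases h1 : IsSquare (a * b)
  · exact Or.inl (key ha hb h1)
  by_cases h3 : IsSquare (a * c)
  · exact Or.inr (Or.inl (key ha hc h3))
  refine Or.inr (Or.inr (key hb hc ?_))
  have h4 := hsq _ _ (mul_ne_zero ha hb) (mul_ne_zero ha hc) h1 h3
  obtain ⟨r, hr⟩ := h4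
  refine ⟨r / a, ?_⟩
  field_simp
  linear_combination hr

end Cfsg.Agent.H885.C2Scalar
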