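import Cfsg.Agent.H886.Decomp
import Cfsg.Agent.H885.Nondeg
import Cfsg.Agent.H885.C2Scalar

/-!
Connectedness of the graph "not orthogonal" on the vectors of a given nonzero norm of a nondegenerate
subspace `W` (`Conn`), of dimension at least three.
-/

set_option autoImplicit false

namespace Cfsg.Agent.H885.C2Conn

open QuadraticMap Cfsg.Agent.LieClassical.OrthCore Cfsg.Agent.LieClassical.OrthTrans
  Cfsg.Agent.LieClassical.OrthFinite Cfsg.Agent.LieClassical.OrthSimple Cfsg.Agent.H885.RootT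
  Cfsg.Agent.H885.Irr Cfsg.Agent.H885.C2Scalar

variable {F V : Type*} [Field F] [AddCommGroup V] [Module F V] {Q : QuadraticForm F V}
  {W : Submodule F V}

/-- Reachability in the graph "not orthogonal" on the vectors of norm `Q b` of `W`. -/
inductive Rch (Q : QuadraticForm F V) (W : Submodule F V) (b : V) : V → Prop
  | base : Rch Q W b b
  | step {c d : V} : Rch Q W b c → d ∈ W → Q d = Q b → polar Q c d ≠ 0 → Rch Q W b d

/-- The vectors reachable from a nonsingular vector of `W` span `W`. -/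
def Conn (Q : QuadraticForm F V) (W : Submodule F V) : Prop :=
  ∀ b ∈ W, Q b ≠ 0 → ∀ K : Submodule F V, (∀ c, Rch Q W b c → c ∈ K) → W ≤ K

theorem Rch.mem {b c : V} (h : Rch Q W b c) (hb : b ∈ W) : c ∈ W := by
  cases h with
  | base => exact hb
  | step _ h _ _ => exact h

theorem Rch.norm {b c : V} (h : Rch Q W b c) : Q c = Q b := by
  cases h with
  | base => rfl
  | step _ _ h _ => exact h

/-- Under `Conn`, some vector of norm `Q b` is not orthogonal to a given nonzero vector of `W`. -/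
theorem Conn.exists_polar_ne (h : Conn Q W) (hW : NdOn Q W) {b x : V} (hb : b ∈ W) (hQb : Q b ≠ 0)
    (hx : x ∈ W) (hx0 : x ≠ 0) : ∃ c ∈ W, Q c = Q b ∧ polar Q c x ≠ 0 := by
  by_contra hcon
  push Not at hcon
  apply hx0
  refine hW x hx fun y hy => ?_
  have h1 : W ≤ LinearMap.ker (polarBilin Q x) := h b hb hQb _ fun c hc => by
    rw [LinearMap.mem_ker]
    have := hcon c (hc.mem hb) hc.norm
    rw [polar_comm] at this
    exact this
  exact LinearMap.mem_ker.1 (h1 hy)

/-! ### Elementary facts on nondegenerate subspaces -/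

/-- The vectors of `W` orthogonal to `b`. -/
def bp (Q : QuadraticForm F V) (W : Submodule F V) (b : V) : Submodule F V :=
  W ⊓ LinearMap.ker (polarBilin Q b)

theorem mem_bp {b v : V} : v ∈ bp Q W b ↔ v ∈ W ∧ polar Q b v = 0 := Iff.rfl

theorem ndOn_bp (h2 : (2 : F) ≠ 0) (hW : NdOn Q W) {b : V} (hb : b ∈ W) (hQb : Q b ≠ 0) :
    NdOn Q (bp Q W b) := by
  rintro w ⟨hw, hwb⟩ h
  have hwb' : polar Q b w = 0 := hwb
  refine hW w hw fun y hy => ?_
  have h2b : 2 * Q b ≠ 0 := mul_ne_zero h2 hQb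
  have h1 := h (y - (polar Q b y * (2 * Q b)⁻¹) • b) ⟨W.sub_mem hy (W.smul_mem _ hb), by
    show polar Q b _ = 0
    rw [polar_sub_right, polar_smul_right, polar_self', smul_eq_mul]
    field_simp
    ring⟩
  rw [polar_sub_right, polar_smul_right, polar_comm Q w b, hwb'] at h1
  simpa using h1

/-- The vectors of `W` orthogonal to a nondegenerate pair. -/
theorem ndOn_pair (hW : NdOn Q W) {x y : V} (hx : x ∈ W) (hy : y ∈ W)
    (hd : 4 * Q x * Q y - polar Q x y ^ 2 ≠ 0) : NdOn Q (bp Q (bp Q W x) y) := by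
  rintro w ⟨⟨hw, hwx⟩, hwy⟩ h
  have hwx' : polar Q x w = 0 := hwx
  have hwy' : polar Q y w = 0 := hwy
  refine hW w hw fun v hv => ?_
  set d := 4 * Q x * Q y - polar Q x y ^ 2 with hdd
  have h1 := h (v - (d⁻¹ * (2 * Q y * polar Q x v - polar Q x y * polar Q y v)) • x -
    (d⁻¹ * (2 * Q x * polar Q y v - polar Q x y * polar Q x v)) • y)
    ⟨⟨W.sub_mem (W.sub_mem hv (W.smul_mem _ hx)) (W.smul_mem _ hy), by
      show polar Q x _ = 0
      rw [polar_sub_right, polar_sub_right,
        polar_smul_right, polar_smul_right, polar_self', smul_eq_mul, smul_eq_mul]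
      field_simp
      rw [hdd]
      ring⟩, by
      show polar Q y _ = 0
      rw [polar_sub_right, polar_sub_right,
        polar_smul_right, polar_smul_right, polar_self', smul_eq_mul, smul_eq_mul,
        polar_comm Q y x]
      field_simp
      rw [hdd]
      ring⟩
  rw [polar_sub_right, polar_sub_right, polar_smul_right, polar_smul_right, polar_comm Q w x,
    polar_comm Q w y, hwx', hwy'] at h1
  simpa using h1

theorem exists_nonsing (hW : NdOn Q W) {x : V} (hx : x ∈ W) (hx0 : x ≠ 0) :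
    ∃ u ∈ W, Q u ≠ 0 := by
  by_contra hcon
  push Not at hcon
  apply hx0
  refine hW x hx fun y hy => ?_
  rw [polar, hcon _ (W.add_mem hx hy), hcon x hx, hcon y hy]
  ring

theorem exists_partner (hW : NdOn Q W) {e : V} (he : e ∈ W) (he0 : e ≠ 0) (hQe : Q e = 0) :
    ∃ f ∈ W, Q f = 0 ∧ polar Q e f = 1 := by
  obtain ⟨y, hy, hey⟩ := hW.exists_ne he he0
  refine ⟨(polar Q e y)⁻¹ • y - (Q ((polar Q e y)⁻¹ • y)) • e,
    W.sub_mem (W.smul_mem _ hy) (W.smul_mem _ he), ?_, ?_⟩
  · rw [sub_eq_add_neg, Q_add, QuadraticMap.map_neg, polar_neg_right, QuadraticMap.map_smul _ _ e,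
      hQe, polar_smul_right, polar_smul_left, polar_comm Q y e]
    simp only [smul_eq_mul]
    rw [inv_mul_cancel₀ hey]
    ring
  · rw [polar_sub_right, polar_smul_right, polar_smul_right, polar_self_of_sing hQe, smul_zero,
      sub_zero, smul_eq_mul, inv_mul_cancel₀ hey]

/-- A nondegenerate isotropic subspace is spanned by its singular vectors. -/
theorem le_of_sing_mem (hW : NdOn Q W) {e : V} (he : e ∈ W) (he0 : e ≠ 0) (hQe : Q e = 0)
    {K : Submodule F V} (hK : ∀ s ∈ W, Q s = 0 → s ∈ K) : W ≤ K := by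
  obtain ⟨f, hf, hQf, hef⟩ := exists_partner hW he he0 hQe
  have heK := hK e he hQe
  have hfK := hK f hf hQf
  intro y hy
  set y₀ := y - polar Q f y • e - polar Q e y • f with hy₀
  have h1 : y₀ ∈ W := W.sub_mem (W.sub_mem hy (W.smul_mem _ he)) (W.smul_mem _ hf)
  have h2 : polar Q y₀ e = 0 := by
    rw [hy₀, polar_sub_left, polar_sub_left, polar_smul_left, polar_smul_left,
      polar_self_of_sing hQe, polar_comm Q f e, hef, polar_comm Q y e]
    simp
  have h3 : polar Q y₀ f = 0 := by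
    rw [hy₀, polar_sub_left, polar_sub_left, polar_smul_left, polar_smul_left,
      polar_self_of_sing hQf, hef, polar_comm Q y f]
    simp
  have h4 : y₀ + (-(Q y₀)) • e + f ∈ K := by
    refine hK _ (W.add_mem (W.add_mem h1 (W.smul_mem _ he)) hf) ?_
    rw [Q_add, Q_add, QuadraticMap.map_smul, hQe, hQf, polar_smul_right, h2, polar_add_left,
      polar_smul_left, h3, hef]
    simp
  have h5 : y = (y₀ + (-(Q y₀)) • e + f) + (Q y₀ + polar Q f y) • e + (polar Q e y - 1) • f := by
    rw [hy₀]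
    module
  rw [h5]
  exact K.add_mem (K.add_mem h4 (K.smul_mem _ heK)) (K.smul_mem _ hfK)

/-- Universality in odd characteristic. -/
theorem exists_norm_eq [Finite F] (h2 : (2 : F) ≠ 0) (hW : NdOn Q W) {b : V} (hb : b ∈ W)
    (hQb : Q b ≠ 0) (hk : 3 ≤ Module.finrank F W) (c : F) :
    ∃ u ∈ W, polar Q b u = 0 ∧ Q u = c := by
  have h1 := ndOn_bp h2 hW hb hQb
  obtain ⟨x, hx, hx0, hbx⟩ := exists_mem_perp (Q := Q) ![b] W (by omega)
  obtain ⟨u₁, hu₁, hQu₁⟩ := exists_nonsing h1 (x := x) ⟨hx, hbx 0⟩ hx0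
  have h3 := ndOn_bp h2 h1 hu₁ hQu₁
  obtain ⟨y, hy, hy0, hby⟩ := exists_mem_perp (Q := Q) ![b, u₁] W (by omega)
  obtain ⟨u₂, ⟨hu₂, hu₁u₂⟩, hQu₂⟩ := exists_nonsing h3 (x := y) ⟨⟨hy, hby 0⟩, hby 1⟩ hy0
  have hu₁u₂' : polar Q u₁ u₂ = 0 := hu₁u₂
  have hbu₁ : polar Q b u₁ = 0 := hu₁.2
  have hbu₂ : polar Q b u₂ = 0 := hu₂.2
  obtain ⟨s, t, hst⟩ := exists_binary hQu₁ hQu₂ c
  refine ⟨s • u₁ + t • u₂, W.add_mem (W.smul_mem _ hu₁.1) (W.smul_mem _ hu₂.1), ?_, ?_⟩
  · rw [polar_add_right, polar_smul_right, polar_smul_right, hbu₁, hbu₂]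
    simp
  · rw [Q_add, QuadraticMap.map_smul, QuadraticMap.map_smul, polar_smul_left, polar_smul_right,
      hu₁u₂', ← hst]
    simp only [smul_eq_mul]
    ring

/-! ### Connectedness -/

/-- A vector of `W` is in `K` when its component orthogonal to `b` is. -/
theorem le_of_bp (h2 : (2 : F) ≠ 0) {b : V} (hb : b ∈ W) (hQb : Q b ≠ 0) {K : Submodule F V}
    (hbK : b ∈ K) (h : bp Q W b ≤ K) : W ≤ K := by
  intro z hz
  have h2b : 2 * Q b ≠ 0 := mul_ne_zero h2 hQb
  have h1 : z - (polar Q b z * (2 * Q b)⁻¹) • b ∈ K := h ⟨W.sub_mem hz (W.smul_mem _ hb), by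
    show polar Q b _ = 0
    rw [polar_sub_right, polar_smul_right, polar_self', smul_eq_mul]
    field_simp
    ring⟩
  have := K.add_mem h1 (K.smul_mem (polar Q b z * (2 * Q b)⁻¹) hbK)
  rwa [sub_add_cancel] at this

theorem conn_odd_four [Finite F] (h2 : (2 : F) ≠ 0) (hW : NdOn Q W)
    (hk : 4 ≤ Module.finrank F W) : Conn Q W := by
  intro b hb hQb K hK
  have hbK : b ∈ K := hK b Rch.base
  refine le_of_bp h2 hb hQb hbK ?_
  obtain ⟨e, he, he0, hQe, hbe⟩ := exists_sing_mem_perp (Q := Q) ![b] W (by omega)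
  refine le_of_sing_mem (ndOn_bp h2 hW hb hQb) (e := e) ⟨he, hbe 0⟩ he0 hQe ?_
  rintro s ⟨hs, hbs⟩ hQs
  have hbs' : polar Q b s = 0 := hbs
  have h1 : b + s ∈ K := by
    refine hK _ (Rch.step Rch.base (W.add_mem hb hs) ?_ ?_)
    · rw [Q_add, hQs, hbs']; simp
    · rw [polar_add_right, polar_self', hbs', add_zero]
      exact mul_ne_zero h2 hQb
  have := K.sub_mem h1 hbK
  rwa [add_sub_cancel_left] at this

theorem conn_odd_three [Finite F] (h2 : (2 : F) ≠ 0) (hF : 4 ≤ Nat.card F) (hW : NdOn Q W)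
    (hk : 3 ≤ Module.finrank F W) : Conn Q W := by
  classical
  intro b hb hQb K hK
  have hbK : b ∈ K := hK b Rch.base
  refine le_of_bp h2 hb hQb hbK ?_
  obtain ⟨α, hα⟩ := exists_avoid ({0, 1, -1} : Finset F) (lt_of_le_of_lt Finset.card_le_three
    (by omega))
  simp only [Finset.mem_insert, Finset.mem_singleton, not_or] at hα
  obtain ⟨hα0, hα1, hα2⟩ := hα
  set κ := Q b * (1 - α ^ 2) with hκ
  have hκ0 : κ ≠ 0 := by
    refine mul_ne_zero hQb fun h => ?_
    have : (1 - α) * (1 + α) = 0 := by linear_combination h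
    rcases mul_eq_zero.1 this with h | h
    · exact hα1 (by linear_combination -h)
    · exact hα2 (by linear_combination h)
  have hw : ∀ w ∈ W, polar Q b w = 0 → Q w = κ → w ∈ K := by
    intro w hw hbw hQw
    have h1 : α • b + w ∈ K := by
      refine hK _ (Rch.step Rch.base (W.add_mem (W.smul_mem _ hb) hw) ?_ ?_)
      · rw [Q_add, QuadraticMap.map_smul, polar_smul_left, hbw, hQw, hκ]
        simp only [smul_eq_mul]
        ring
      · rw [polar_add_right, polar_smul_right, polar_self', hbw, add_zero]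
        exact mul_ne_zero hα0 (mul_ne_zero h2 hQb)
    have := K.sub_mem h1 (K.smul_mem α hbK)
    rwa [add_sub_cancel_left] at this
  obtain ⟨u₀, hu₀, hbu₀, hQu₀⟩ := exists_norm_eq h2 hW hb hQb hk κ
  have hu₀K := hw u₀ hu₀ hbu₀ hQu₀
  have hns : ∀ y ∈ W, polar Q b y = 0 → Q y ≠ 0 → polar Q y u₀ ≠ 0 → y ∈ K := by
    intro y hy hby hQy hyu
    have h1 : refl Q y hQy u₀ ∈ K := by
      refine hw _ ?_ ?_ ?_
      · rw [refl_apply]
        exact W.sub_mem hu₀ (W.smul_mem _ hy)
      · rw [refl_apply, polar_sub_right, polar_smul_right, hbu₀, hby]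
        simp
      · rw [mem_O.1 (refl_mem_O hQy), hQu₀]
    have h3 := K.sub_mem hu₀K h1
    rw [refl_apply, sub_sub_cancel] at h3
    exact (K.smul_mem_iff (mul_ne_zero (inv_ne_zero hQy) hyu)).1 h3
  rintro y ⟨hy, hby⟩
  have hby' : polar Q b y = 0 := hby
  obtain ⟨t, ht1, ht2⟩ : ∃ t : F, Q (y + t • u₀) ≠ 0 ∧ polar Q (y + t • u₀) u₀ ≠ 0 := by
    have h2κ : 2 * κ ≠ 0 := mul_ne_zero h2 hκ0
    obtain ⟨c, hc⟩ : ∃ c, 2 * κ * c = 1 := ⟨(2 * κ)⁻¹, mul_inv_cancel₀ h2κ⟩
    obtain ⟨s, hs, hs', -⟩ := exists_sqrt_set κ (-(Q y) + polar Q y u₀ ^ 2 * (κ * c ^ 2)) hκ0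
    obtain ⟨t, ht⟩ := exists_avoid (insert 0 s) (lt_of_le_of_lt (Finset.card_insert_le _ _)
      (by omega))
    simp only [Finset.mem_insert, not_or] at ht
    obtain ⟨ht0, hts⟩ := ht
    refine ⟨t - polar Q y u₀ * c, fun h => hts (hs' t ?_), fun h => ht0 ?_⟩
    · rw [Q_add, QuadraticMap.map_smul, polar_smul_right, hQu₀] at h
      simp only [smul_eq_mul] at h
      linear_combination h + (t * polar Q y u₀ - polar Q y u₀ ^ 2 * c) * hc
    · rw [polar_add_left, polar_smul_left, polar_self', hQu₀, smul_eq_mul] at h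
      have : 2 * κ * t = 0 := by linear_combination h + polar Q y u₀ * hc
      rcases mul_eq_zero.1 this with h | h
      · exact absurd h h2κ
      · exact h
  have h1 := hns _ (W.add_mem hy (W.smul_mem t hu₀)) (by
    rw [polar_add_right, polar_smul_right, hbu₀, hby']; simp) ht1 ht2
  have := K.sub_mem h1 (K.smul_mem t hu₀K)
  rwa [add_sub_cancel_right] at this

/-- The complement of the hyperplane `b^⊥` spans. -/
theorem le_of_not_perp (hW : NdOn Q W) {b : V} (hb : b ∈ W) (hb0 : b ≠ 0) {K : Submodule F V}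
    (h : ∀ z ∈ W, polar Q b z ≠ 0 → z ∈ K) : W ≤ K := by
  intro z hz
  by_cases hbz : polar Q b z = 0
  · obtain ⟨y, hy, hby⟩ := hW.exists_ne hb hb0
    have h1 := h (z + y) (W.add_mem hz hy) (by rw [polar_add_right, hbz, zero_add]; exact hby)
    have := K.sub_mem h1 (h y hy hby)
    rwa [add_sub_cancel_right] at this
  · exact h z hz hbz

theorem ne_zero_of_Q {b : V} (hQb : Q b ≠ 0) : b ≠ 0 := by
  rintro rfl
  exact hQb (map_zero Q)

theorem conn_even [Finite F] (h2 : (2 : F) = 0) (hF : 3 ≤ Nat.card F) (hW : NdOn Q W) :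
    Conn Q W := by
  classical
  intro b hb hQb K hK
  have hbK : b ∈ K := hK b Rch.base
  refine le_of_not_perp hW hb (ne_zero_of_Q hQb) fun z hz hbz => ?_
  have hns : ∀ z ∈ W, polar Q b z ≠ 0 → Q z ≠ 0 → z ∈ K := by
    intro z hz hbz hQz
    have : Fintype F := Fintype.ofFinite F
    have : CharP F 2 := CharTwo.of_one_ne_zero_of_two_eq_zero one_ne_zero h2
    obtain ⟨r, hr⟩ := FiniteField.isSquare_of_char_two (ringChar.eq F 2) (Q b * (Q z)⁻¹)
    have hr0 : r ≠ 0 := by
      rintro rfl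
      rw [mul_zero] at hr
      exact mul_ne_zero hQb (inv_ne_zero hQz) hr
    have h1 : r • z ∈ K := by
      refine hK _ (Rch.step Rch.base (W.smul_mem _ hz) ?_ ?_)
      · rw [QuadraticMap.map_smul, ← hr, smul_eq_mul, mul_assoc, inv_mul_cancel₀ hQz, mul_one]
      · rw [polar_smul_right]
        exact mul_ne_zero hr0 hbz
    exact (K.smul_mem_iff hr0).1 h1
  by_cases hQz : Q z = 0
  · obtain ⟨t, ht⟩ := exists_avoid ({0, polar Q b z * (Q b)⁻¹} : Finset F)
      (lt_of_le_of_lt Finset.card_le_two (by omega))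
    simp only [Finset.mem_insert, Finset.mem_singleton, not_or] at ht
    obtain ⟨ht0, ht1⟩ := ht
    have h1 : z + t • b ∈ K := by
      refine hns _ (W.add_mem hz (W.smul_mem _ hb)) ?_ ?_
      · rw [polar_add_right, polar_smul_right, polar_self', h2]
        simpa using hbz
      · rw [Q_add, hQz, QuadraticMap.map_smul, polar_smul_right, polar_comm Q z b]
        simp only [smul_eq_mul]
        intro h
        have h3 : t * (t * Q b + polar Q b z) = 0 := by linear_combination h
        rcases mul_eq_zero.1 h3 with h | h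
        · exact ht0 h
        · apply ht1
          field_simp
          linear_combination h - polar Q b z * h2
    have := K.sub_mem h1 (K.smul_mem t hbK)
    rwa [add_sub_cancel_right] at this
  · exact hns z hz hbz hQz

theorem eq_one_of_card_two (hF : Nat.card F = 2) {a : F} (ha : a ≠ 0) : a = 1 := by
  classical
  have : Finite F := Nat.finite_of_card_ne_zero (by omega)
  have : Fintype F := Fintype.ofFinite F
  by_contra h
  have h3 : ({0, 1, a} : Finset F).card = 3 := by
    rw [Finset.card_eq_three]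
    exact ⟨0, 1, a, zero_ne_one, Ne.symm ha, Ne.symm h, rfl⟩
  have h4 := Finset.card_le_univ ({0, 1, a} : Finset F)
  rw [h3, ← Nat.card_eq_fintype_card, hF] at h4
  omega

theorem two_eq_zero_of_card_two (hF : Nat.card F = 2) : (2 : F) = 0 := by
  by_contra h
  have h1 := eq_one_of_card_two hF h
  exact one_ne_zero (α := F) (by linear_combination h1)

theorem conn_two (hF : Nat.card F = 2) (hW : NdOn Q W) (hk : 4 ≤ Module.finrank F W)
    (hex : ¬ (Module.finrank F W = 4 ∧ ∃ U ≤ W, Module.finrank F U = 2 ∧ ∀ u ∈ U, Q u = 0)) :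
    Conn Q W := by
  have h2 := two_eq_zero_of_card_two hF
  have hone : ∀ {a : F}, a ≠ 0 → a = 1 := fun ha => eq_one_of_card_two hF ha
  intro b hb hQb K hK
  have hbK : b ∈ K := hK b Rch.base
  refine le_of_not_perp hW hb (ne_zero_of_Q hQb) fun z hz hbz => ?_
  by_cases hQz : Q z = 0
  · have hb1 : Q b = 1 := hone hQb
    have hbz1 : polar Q b z = 1 := hone hbz
    have hW₀ : NdOn Q (bp Q (bp Q W b) z) := by
      refine ndOn_pair hW hb hz ?_
      rw [hQz, mul_zero, zero_sub, hbz1]
      simp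
    obtain ⟨w, w', ⟨⟨hw, hbw⟩, hzw⟩, ⟨⟨hw', hbw'⟩, hzw'⟩, hQw, hQw', hww'⟩ :
        ∃ w w' : V, w ∈ bp Q (bp Q W b) z ∧ w' ∈ bp Q (bp Q W b) z ∧ Q w = 1 ∧ Q w' = 1 ∧
          polar Q w w' = 1 := by
      obtain ⟨x, hx, hx0, hxp⟩ := exists_mem_perp (Q := Q) ![b, z] W (by omega)
      obtain ⟨w, hw, hQw⟩ := exists_nonsing hW₀ (x := x) ⟨⟨hx, hxp 0⟩, hxp 1⟩ hx0
      obtain ⟨z₀, hz₀, hwz₀⟩ := hW₀.exists_ne hw (ne_zero_of_Q hQw)
      by_cases hQz₀ : Q z₀ = 0
      · by_cases hk4 : Module.finrank F W = 4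
        · exfalso
          apply hex
          have hzz₀ : polar Q z z₀ = 0 := hz₀.2
          have hbz₀ : polar Q b z₀ = 0 := hz₀.1.2
          have hz₀0 : z₀ ≠ 0 := by
            rintro rfl
            exact hwz₀ (polar_zero_right _ _)
          refine ⟨hk4, Submodule.span F (Set.range ![z, z₀]), ?_, ?_, ?_⟩
          · rw [Submodule.span_le]
            rintro _ ⟨i, rfl⟩
            fin_cases i
            · exact hz
            · exact hz₀.1.1
          · have hli : LinearIndependent F ![z, z₀] := by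
              rw [LinearIndependent.pair_iff]
              intro s t hst
              have hs : s = 0 := by
                have : polar Q b (s • z + t • z₀) = 0 := by rw [hst, polar_zero_right]
                rw [polar_add_right, polar_smul_right, polar_smul_right, hbz₀, hbz1] at this
                simpa using this
              refine ⟨hs, ?_⟩
              rw [hs, zero_smul, zero_add] at hst
              rcases smul_eq_zero.1 hst with h | h
              · exact h
              · exact absurd h hz₀0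
            rw [finrank_span_eq_card hli, Fintype.card_fin]
          · intro u hu
            obtain ⟨c, hc⟩ := (Submodule.mem_span_range_iff_exists_fun F).1 hu
            rw [← hc, Fin.sum_univ_two]
            show Q (c 0 • z + c 1 • z₀) = 0
            rw [Q_add, QuadraticMap.map_smul, QuadraticMap.map_smul, polar_smul_left,
              polar_smul_right, hQz, hQz₀, hzz₀]
            simp
        · have hW₁ : NdOn Q (bp Q (bp Q (bp Q (bp Q W b) z) w) z₀) := by
            refine ndOn_pair hW₀ hw hz₀ ?_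
            rw [hQz₀, mul_zero, zero_sub, hone hwz₀]
            simp
          obtain ⟨y, hy, hy0, hyp⟩ := exists_mem_perp (Q := Q) ![b, z, w, z₀] W (by omega)
          obtain ⟨c, ⟨⟨hc, hwc⟩, hz₀c⟩, hQc⟩ :=
            exists_nonsing hW₁ (x := y) ⟨⟨⟨⟨hy, hyp 0⟩, hyp 1⟩, hyp 2⟩, hyp 3⟩ hy0
          have hwc' : polar Q w c = 0 := hwc
          have hz₀c' : polar Q z₀ c = 0 := hz₀c
          refine ⟨w, z₀ + c, hw, Submodule.add_mem _ hz₀ hc, hone hQw, ?_, ?_⟩
          · rw [Q_add, hQz₀, hone hQc, hz₀c']; simp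
          · rw [polar_add_right, hone hwz₀, hwc', add_zero]
      · exact ⟨w, z₀, hw, hz₀, hone hQw, hone hQz₀, hone hwz₀⟩
    have hbw1 : polar Q b w = 0 := hbw
    have hzw1 : polar Q z w = 0 := hzw
    have hbw1' : polar Q b w' = 0 := hbw'
    have hzw1' : polar Q z w' = 0 := hzw'
    have h3 : Rch Q W b (z + w') := by
      refine Rch.step Rch.base (W.add_mem hz hw') ?_ ?_
      · rw [Q_add, hQz, hQw', hzw1', hb1]; simp
      · rw [polar_add_right, hbz1, hbw1', add_zero]; exact one_ne_zero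
    have h4 : Rch Q W b w := by
      refine Rch.step h3 hw (by rw [hQw, hb1]) ?_
      rw [polar_add_left, hzw1, polar_comm Q w' w, hww', zero_add]
      exact one_ne_zero
    have h5 : Rch Q W b (z + w) := by
      refine Rch.step Rch.base (W.add_mem hz hw) ?_ ?_
      · rw [Q_add, hQz, hQw, hzw1, hb1]; simp
      · rw [polar_add_right, hbz1, hbw1, add_zero]; exact one_ne_zero
    have := K.sub_mem (hK _ h5) (hK _ h4)
    rwa [add_sub_cancel_right] at this
  · exact hK _ (Rch.step Rch.base hz (by rw [hone hQz, hone hQb]) hbz)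

/-- **Connectedness**, all cases. -/
theorem conn [Finite F] (hW : NdOn Q W) (hk : 3 ≤ Module.finrank F W)
    (h3 : ¬ (Module.finrank F W = 3 ∧ Nat.card F = 3)) (h3' : Module.finrank F W = 3 → (2 : F) ≠ 0)
    (hex : ¬ (Module.finrank F W = 4 ∧ Nat.card F = 2 ∧
      ∃ U ≤ W, Module.finrank F U = 2 ∧ ∀ u ∈ U, Q u = 0)) : Conn Q W := by
  have hF1 : 1 < Nat.card F := Finite.one_lt_card
  by_cases h2 : (2 : F) = 0
  · have hk4 : 4 ≤ Module.finrank F W := by
      rcases Nat.lt_or_ge 3 (Module.finrank F W) with h | h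
      · exact h
      · exact absurd h2 (h3' (by omega))
    by_cases hF : Nat.card F = 2
    · exact conn_two hF hW hk4 fun ⟨h4, h5⟩ => hex ⟨h4, hF, h5⟩
    · exact conn_even h2 (by omega) hW
  · by_cases hk4 : 4 ≤ Module.finrank F W
    · exact conn_odd_four h2 hW hk4
    · have hk3 : Module.finrank F W = 3 := by omega
      refine conn_odd_three h2 ?_ hW hk
      have hne3 : Nat.card F ≠ 3 := fun h => h3 ⟨hk3, h⟩
      have hne2 : Nat.card F ≠ 2 := fun h => h2 (two_eq_zero_of_card_two h)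
      omega

end Cfsg.Agent.H885.C2Conn
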