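import Cfsg.Agent.H885.C2Three
import Cfsg.Agent.H886.NotMax

/-!
**The stabiliser in `Ω` of an orthogonal decomposition into isometric nondegenerate subspaces of dimension
`k ≥ 3` is maximal**, for every nondegenerate quadratic form over a finite field, except `(k, q) = (3, 3)` and
`(k, q) = (4, 2)` with members of plus type (and the untreated case `t = 2`, `k ≤ 4`).
-/

set_option autoImplicit false
set_option linter.unusedSectionVars false

namespace Cfsg.Agent.H885.C2Main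

open QuadraticMap Cfsg.Agent.LieClassical.OrthCore Cfsg.Agent.LieClassical.OrthTrans
  Cfsg.Agent.LieClassical.OrthFinite Cfsg.Agent.LieClassical.OrthSimple Cfsg.Agent.H883.Bridge
  Cfsg.Agent.H885.RootT Cfsg.Agent.H885.Irr Cfsg.Agent.H885.C2Scalar Cfsg.Agent.H885.C2Conn
  Cfsg.Agent.H886.Decomp Cfsg.Agent.H885.C2Rigid Cfsg.Agent.H885.C2Trans
  Cfsg.Agent.H885.C2NonRigid Cfsg.Agent.H885.C2Three

section Free

variable {F V : Type*} [Field F] [AddCommGroup V] [Module F V] {Q : QuadraticForm F V} {t : ℕ}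
  {D : Fin t → Submodule F V} {p : Fin t → V →ₗ[F] V} {k : ℕ}

/-- `E Q` does not preserve an orthogonal decomposition into at least two isotropic members. -/
theorem not_E_le [FiniteDimensional F V] (h : Dec Q D p) (ht : 2 ≤ t)
    (hhyp : ∀ i, ∃ x y, x ∈ D i ∧ y ∈ D i ∧ Hyp Q x y) : ¬ E Q ≤ stabFamily D := by
  intro hE
  let a : Fin t := ⟨0, by omega⟩
  let b : Fin t := ⟨1, by omega⟩
  have hab : a ≠ b := by simp [a, b, Fin.ext_iff]
  obtain ⟨s, y, hs, hy, hsy⟩ := hhyp a
  obtain ⟨w, w', hw, hw', hww'⟩ := hhyp b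
  have hw0 : w ≠ 0 := by
    rintro rfl
    have := hww'.pair
    rw [polar_zero_left] at this
    exact zero_ne_one this
  have hy0 : y ≠ 0 := by
    rintro rfl
    have := hsy.pair
    rw [polar_zero_right] at this
    exact zero_ne_one this
  have hsw : polar Q s w = 0 := h.orth a b hab s hs w hw
  have hwy : polar Q w y = 0 := h.orth b a hab.symm w hw y hy
  obtain ⟨σ, hσ⟩ := hE (siegel_mem_E hsy.left hsw)
  have h1 : siegel Q s w hsy.left hsw y ∈ D (σ a) := by
    rw [← hσ a]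
    exact ⟨y, hy, rfl⟩
  have h2 : siegel Q s w hsy.left hsw y = y + w := by
    rw [siegel_apply, hsy.pair, hwy, hww'.left]
    simp
  rw [h2] at h1
  by_cases hc : b = σ a
  · have := h.other a (σ a) (by rw [← hc]; exact hab) _ h1
    rw [map_add, h.self a y hy, h.other a b hab w hw, add_zero] at this
    exact hy0 this
  · have := h.other b (σ a) hc _ h1
    rw [map_add, h.other b a hab.symm y hy, h.self b w hw, zero_add] at this
    exact hw0 this

/-- **Overgroups.** -/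
theorem le_or_le [Finite F] [FiniteDimensional F V] {M : Subgroup (V ≃ₗ[F] V)}
    (c : Ctx Q D p M k) (htk : 3 ≤ t ∨ 5 ≤ k) (h3 : k = 3 → (2 : F) ≠ 0 ∧ 5 ≤ Nat.card F) :
    M ≤ stabFamily D ∨ E Q ≤ M := by
  by_cases hR : Rigid Q D M
  · left
    rcases htk with ht | hk
    · exact c.rigid_of_three hR ht
    · exact c.rigid_of_five hR hk
  · right
    by_cases hk : k = 3
    · exact E_le_of_three (h3 hk).1 (h3 hk).2 c hR
    · have := c.three
      exact E_le_of_four c (by omega) hR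

/-- **Maximality, coordinate free.** -/
theorem maximal_free [Finite F] [FiniteDimensional F V] (hG : Good Q)
    (horth : ∀ i j, i ≠ j → ∀ x ∈ D i, ∀ y ∈ D j, polar Q x y = 0) (hspan : iSup D = ⊤)
    (hk : 3 ≤ k) (hrank : ∀ i, Module.finrank F (D i) = k)
    (hiso : ∀ i j, ∃ e : D i ≃ₗ[F] D j, ∀ z : D i, Q (e z : V) = Q (z : V)) (ht : 2 ≤ t)
    (htk : 3 ≤ t ∨ 5 ≤ k) (h3 : k = 3 → (2 : F) ≠ 0 ∧ Nat.card F ≠ 3)
    (h4 : k = 4 → Nat.card F = 2 → ∀ i, ¬ ∃ U ≤ D i, Module.finrank F U = 2 ∧ ∀ u ∈ U, Q u = 0) :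
    Cfsg.Geo.IsMaximalIn (E Q) (stabFamily D ⊓ E Q) := by
  obtain ⟨p, h⟩ := exists_dec hG.nondeg horth hspan
  have hnd : ∀ i, NdOn Q (D i) := fun i => h.nondegOn hG.nondeg i
  have hconn : ∀ i, Conn Q (D i) := fun i => by
    refine conn (hnd i) (by rw [hrank]; exact hk) ?_ ?_ ?_
    · rw [hrank]
      rintro ⟨h5, h6⟩
      exact (h3 h5).2 h6
    · rw [hrank]
      exact fun h5 => (h3 h5).1
    · rw [hrank]
      rintro ⟨h5, h6, h7⟩
      exact h4 h5 h6 i h7
  have hctx : ∀ M : Subgroup (V ≃ₗ[F] V), stabFamily D ⊓ E Q ≤ M → M ≤ E Q → Ctx Q D p M k :=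
    fun M h1 h2 => ⟨h, hG, hk, hrank, hiso, hconn, h1, h2⟩
  refine ⟨lt_of_le_of_ne inf_le_right fun heq => ?_, fun M hM1 hM2 => ?_⟩
  · refine not_E_le h ht (fun i => exists_hyp_mem (hctx (E Q) inf_le_right le_rfl) i) ?_
    rw [← heq]
    exact inf_le_left
  · have h5 : k = 3 → (2 : F) ≠ 0 ∧ 5 ≤ Nat.card F := by
      intro hk3
      obtain ⟨h6, h7⟩ := h3 hk3
      refine ⟨h6, ?_⟩
      have : Fintype F := Fintype.ofFinite F
      have hodd : Fintype.card F % 2 = 1 := by
        refine FiniteField.odd_card_of_char_ne_two fun h8 => h6 ?_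
        have : CharP F 2 := ringChar.of_eq h8
        exact CharTwo.two_eq_zero
      have h8 := Fintype.one_lt_card (α := F)
      rw [Nat.card_eq_fintype_card] at h7 ⊢
      omega
    rcases le_or_le (hctx M hM1 hM2) htk h5 with h6 | h6
    · left
      exact le_antisymm (le_inf h6 hM2) hM1
    · right
      exact le_antisymm hM2 h6

end Free

section Geo

variable {ι : Type} [Fintype ι] [DecidableEq ι] {F : Type*} [Field F]

omit [Fintype ι] [DecidableEq ι] in
/-- The type is an isometry invariant. -/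
theorem plus_of_isometric {Q : (ι → F) → F} {W W' : Submodule F (ι → F)}
    (h : Cfsg.Geo.AreIsometricFor Q W W') (hW : Cfsg.Geo.IsPlusTypeOn Q W) :
    Cfsg.Geo.IsPlusTypeOn Q W' := by
  obtain ⟨e, he⟩ := h
  obtain ⟨U, hU, hUs, hUd⟩ := hW
  let f : U →ₗ[F] (ι → F) := W'.subtype ∘ₗ (e : W →ₗ[F] W') ∘ₗ Submodule.inclusion hU
  have hf : Function.Injective f := by
    intro x y hxy
    have h1 : e (Submodule.inclusion hU x) = e (Submodule.inclusion hU y) := Subtype.ext hxy
    exact Submodule.inclusion_injective hU (e.injective h1)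
  refine ⟨LinearMap.range f, ?_, ?_, ?_⟩
  · rintro _ ⟨x, rfl⟩
    exact (e (Submodule.inclusion hU x)).2
  · rintro _ ⟨x, rfl⟩
    show Q (e (Submodule.inclusion hU x) : ι → F) = 0
    rw [he]
    exact hUs x x.2
  · rw [LinearMap.finrank_range_of_inj hf, hUd, e.finrank_eq]

/-- **Orthogonal decompositions with members of dimension `k ≥ 3`: the stabiliser in `Ω` is maximal.** -/
theorem decomposition_maximal [Fintype F] {Q : (ι → F) → F}
    (hQ : Cfsg.Geo.IsNondegenerateQuadraticForm Q) {k : ℕ} (hk : 3 ≤ k)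
    (hn : 5 ≤ Fintype.card ι) {t : ℕ}
    {D : Fin t → Submodule F (ι → F)} (hD : Cfsg.Geo.IsOrthogonalMDecomposition Q k D)
    (htk : 3 ≤ t ∨ 5 ≤ k) (h3 : k = 3 → Odd (Fintype.card F) ∧ Fintype.card F ≠ 3)
    (h4 : ¬ (k = 4 ∧ Fintype.card F = 2 ∧ ∀ i, Cfsg.Geo.IsPlusTypeOn Q (D i))) :
    Cfsg.Geo.IsMaximalIn (Cfsg.Geo.omegaGL Q)
      (Cfsg.Geo.decompositionStabilizer D ⊓ Cfsg.Geo.omegaGL Q) := by
  refine decompositionStabilizer_maximal hQ hn D ?_
  rintro Q' rfl hG
  refine maximal_free hG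
    (fun i j hij x hx y hy => hD.decomp.orthogonal i j hij x hx y hy)
    hD.decomp.decomp.iSup_eq_top hk hD.decomp.decomp.finrank_eq
    (fun i j => hD.isometric i j) hD.decomp.decomp.two_le htk ?_ ?_
  · intro hk3
    obtain ⟨h5, h6⟩ := h3 hk3
    refine ⟨fun h2 => ?_, by rw [Nat.card_eq_fintype_card]; exact h6⟩
    have : CharP F 2 := CharTwo.of_one_ne_zero_of_two_eq_zero one_ne_zero h2
    have h7 := FiniteField.even_card_of_char_two (ringChar.eq F 2)
    rw [Nat.odd_iff] at h5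
    omega
  · rintro hk4 hF2 i ⟨U, hU, hUd, hUs⟩
    rw [Nat.card_eq_fintype_card] at hF2
    refine h4 ⟨hk4, hF2, fun j => ?_⟩
    refine plus_of_isometric (hD.isometric i j) ⟨U, hU, hUs, ?_⟩
    rw [hUd, hD.decomp.decomp.finrank_eq, hk4]

end Geo

end Cfsg.Agent.H885.C2Main
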