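import Cfsg.Agent.H885.C2Trans

/-!
Non-rigid overgroups of the stabiliser of an orthogonal decomposition into isometric nondegenerate
subspaces of dimension `k ≥ 4`: they contain `E Q`.
-/

set_option autoImplicit false
set_option linter.unusedSectionVars false

namespace Cfsg.Agent.H885.C2NonRigid

open QuadraticMap Cfsg.Agent.LieClassical.OrthCore Cfsg.Agent.LieClassical.OrthTrans
  Cfsg.Agent.LieClassical.OrthFinite Cfsg.Agent.LieClassical.OrthSimple Cfsg.Agent.H883.Bridge
  Cfsg.Agent.H885.RootT Cfsg.Agent.H885.Irr Cfsg.Agent.H885.C2Scalar Cfsg.Agent.H885.C2Conn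
  Cfsg.Agent.H886.Decomp Cfsg.Agent.H885.C2Rigid Cfsg.Agent.H885.C2Trans
open Cfsg.Agent.H886.Rigid (conj_refl_mul_refl)

variable {F V : Type*} [Field F] [AddCommGroup V] [Module F V] {Q : QuadraticForm F V} {t : ℕ}
  {D : Fin t → Submodule F V} {p : Fin t → V →ₗ[F] V} {M : Subgroup (V ≃ₗ[F] V)} {k : ℕ}

/-! ### The relation `r_a r_b ∈ M` -/

/-- `r_a r_b ∈ M`. -/
def RM (M : Subgroup (V ≃ₗ[F] V)) (Q : QuadraticForm F V) (a b : V) : Prop :=
  ∃ (ha : Q a ≠ 0) (hb : Q b ≠ 0), refl Q a ha * refl Q b hb ∈ M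

theorem RM.left {a b : V} (h : RM M Q a b) : Q a ≠ 0 := h.1

theorem RM.right {a b : V} (h : RM M Q a b) : Q b ≠ 0 := h.2.1

theorem RM.mem {a b : V} (h : RM M Q a b) (ha : Q a ≠ 0) (hb : Q b ≠ 0) :
    refl Q a ha * refl Q b hb ∈ M := h.2.2

theorem refl_mul_cancel {a : V} (ha : Q a ≠ 0) (g : V ≃ₗ[F] V) :
    refl Q a ha * (refl Q a ha * g) = g := by
  rw [← mul_assoc, refl_mul_self, one_mul]

theorem refl_inv_eq {a : V} (ha : Q a ≠ 0) : (refl Q a ha)⁻¹ = refl Q a ha :=
  inv_eq_of_mul_eq_one_right (refl_mul_self ha)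

theorem RM.symm {a b : V} (h : RM M Q a b) : RM M Q b a := by
  obtain ⟨ha, hb, h⟩ := h
  refine ⟨hb, ha, ?_⟩
  have h1 := M.inv_mem h
  rwa [mul_inv_rev, refl_inv_eq, refl_inv_eq] at h1

theorem RM.trans {a b c : V} (h : RM M Q a b) (h' : RM M Q b c) : RM M Q a c := by
  obtain ⟨ha, hb, h⟩ := h
  obtain ⟨_, hc, h'⟩ := h'
  refine ⟨ha, hc, ?_⟩
  have h1 := M.mul_mem h h'
  rwa [mul_assoc, refl_mul_cancel] at h1

theorem RM.conj {a b : V} (h : RM M Q a b) {g : V ≃ₗ[F] V} (hg : g ∈ M) (hgO : g ∈ O Q) :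
    RM M Q (g a) (g b) := by
  obtain ⟨ha, hb, h⟩ := h
  have ha' : Q (g a) ≠ 0 := by rw [mem_O.1 hgO]; exact ha
  have hb' : Q (g b) ≠ 0 := by rw [mem_O.1 hgO]; exact hb
  refine ⟨ha', hb', ?_⟩
  rw [← conj_refl_mul_refl hgO ha hb ha' hb']
  exact M.mul_mem (M.mul_mem hg h) (M.inv_mem hg)

/-- The class is closed under the reflections in its elements. -/
theorem RM.refl {a x v : V} (hx : RM M Q a x) (hv : RM M Q a v) (hQx : Q x ≠ 0) :
    RM M Q a (refl Q x hQx v) := by
  obtain ⟨ha, _, hx⟩ := hx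
  obtain ⟨_, hQv, hv⟩ := hv
  have hQ : Q (LieClassical.OrthCore.refl Q x hQx v) ≠ 0 := by
    rw [mem_O.1 (refl_mem_O hQx)]; exact hQv
  refine ⟨ha, hQ, ?_⟩
  have e : LieClassical.OrthCore.refl Q (LieClassical.OrthCore.refl Q x hQx v) hQ =
      LieClassical.OrthCore.refl Q x hQx * LieClassical.OrthCore.refl Q v hQv *
        LieClassical.OrthCore.refl Q x hQx := by
    rw [← refl_conj (refl_mem_O hQx) hQv hQ, refl_inv_eq]
  rw [e]
  have h1 := M.mul_mem (M.mul_mem hx (M.inv_mem hv)) hx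
  rw [mul_inv_rev, refl_inv_eq, refl_inv_eq] at h1
  have e2 : LieClassical.OrthCore.refl Q a ha * LieClassical.OrthCore.refl Q x hQx *
      (LieClassical.OrthCore.refl Q v hQv * LieClassical.OrthCore.refl Q a ha) *
      (LieClassical.OrthCore.refl Q a ha * LieClassical.OrthCore.refl Q x hQx) =
      LieClassical.OrthCore.refl Q a ha * (LieClassical.OrthCore.refl Q x hQx *
        LieClassical.OrthCore.refl Q v hQv * LieClassical.OrthCore.refl Q x hQx) := by
    have h2 := refl_mul_self ha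
    calc _ = LieClassical.OrthCore.refl Q a ha * LieClassical.OrthCore.refl Q x hQx *
        LieClassical.OrthCore.refl Q v hQv * (LieClassical.OrthCore.refl Q a ha *
        LieClassical.OrthCore.refl Q a ha) * LieClassical.OrthCore.refl Q x hQx := by
          simp only [mul_assoc]
      _ = _ := by rw [h2, mul_one]; simp only [mul_assoc]
  rwa [e2] at h1

/-- `r_x r_{x + c s}` is a Siegel transformation. -/
theorem refl_mul_refl_eq_siegel {x s : V} (hQx : Q x ≠ 0) (hQs : Q s = 0) (hsx : polar Q s x = 0)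
    (c : F) (hQ : Q (x + c • s) ≠ 0) (hp : polar Q s (((Q x)⁻¹ * c) • x) = 0) :
    refl Q x hQx * refl Q (x + c • s) hQ = siegel Q s (((Q x)⁻¹ * c) • x) hQs hp := by
  have hxs : polar Q x s = 0 := by rw [polar_comm]; exact hsx
  have e : Q (x + c • s) = Q x := by
    rw [Q_add, QuadraticMap.map_smul, hQs, polar_smul_right, hxs]
    simp
  ext z
  show refl Q x hQx (refl Q (x + c • s) hQ z) = _
  rw [refl_apply hQ, refl_apply hQx, siegel_apply, e, polar_add_left, polar_smul_left,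
    polar_sub_right, polar_smul_right, polar_add_right, polar_smul_right, hxs, polar_self',
    QuadraticMap.map_smul, polar_smul_left]
  simp only [smul_eq_mul]
  have h1 : (Q x)⁻¹ * Q x = 1 := inv_mul_cancel₀ hQx
  match_scalars
  · field_simp
  · field_simp
    ring
  · field_simp
    ring

variable [FiniteDimensional F V]

theorem RM_of_mem (c : Ctx Q D p M k) {i j : Fin t} {a b : V} (ha : a ∈ D i) (hb : b ∈ D j)
    (hQa : Q a ≠ 0) (hab : Q a = Q b) : RM M Q a b :=
  ⟨hQa, by rw [← hab]; exact hQa, c.refl_mem ha hb hQa _ hab⟩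

/-- Elements of `stabFamily D ⊓ E Q` move an element of the class inside the class. -/
theorem RM_map (c : Ctx Q D p M k) {i : Fin t} {a x : V} (ha : a ∈ D i) (h : RM M Q a x)
    {m : V ≃ₗ[F] V} (hm : m ∈ stabFamily D ⊓ E Q) : RM M Q x (m x) := by
  have hmM := c.le hm
  have hmO := c.le_O hmM
  obtain ⟨σ, hσ⟩ := hm.1
  have h1 : m a ∈ D (σ i) := by rw [← hσ i]; exact Submodule.mem_map_of_mem ha
  have h2 : RM M Q a (m a) := RM_of_mem c ha h1 h.left (mem_O.1 hmO a).symm
  exact (h.symm.trans h2).trans (h.conj hmM hmO)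

/-- **Good vectors**: `x` outside `D i` in the class, with nonsingular `i`-component orthogonal to a singular
vector of `D i`. -/
theorem E_le_of_good [Finite F] (c : Ctx Q D p M k) {i j : Fin t} {a x s : V} (ha : a ∈ D j)
    (h : RM M Q a x) (hxi : x ∉ D i) (hQxi : Q (p i x) ≠ 0) (hs : s ∈ D i) (hs0 : s ≠ 0)
    (hQs : Q s = 0) (hsx : polar Q s x = 0) : E Q ≤ M := by
  have hk := c.three
  have hQx := h.right
  refine E_le_of_mem_T c hs hs0 hQs (x := x) ?_ hxi
  -- a vector of `D i` orthogonal to `s` but not to `x`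
  obtain ⟨y, hy, hsy, hyx⟩ : ∃ y ∈ D i, polar Q s y = 0 ∧ polar Q y x ≠ 0 := by
    by_contra hcon
    push Not at hcon
    obtain ⟨s', hs', hQs', hss'⟩ := exists_partner (c.nd i) hs hs0 hQs
    have h1 : p i x - polar Q s' x • s = 0 := by
      refine c.nd i _ ((D i).sub_mem (c.dec.mem i x) ((D i).smul_mem _ hs)) fun y hy => ?_
      have h2 := hcon (y - polar Q s y • s') ((D i).sub_mem hy ((D i).smul_mem _ hs')) (by
        rw [polar_sub_right, polar_smul_right, hss']; simp)
      rw [polar_sub_left, polar_smul_left, ← c.dec.polar_left i x hy, polar_comm Q x y,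
        smul_eq_mul]
      rw [polar_sub_left, polar_smul_left, smul_eq_mul] at h2
      linear_combination h2
    rw [sub_eq_zero] at h1
    rw [h1, QuadraticMap.map_smul, hQs, smul_zero] at hQxi
    exact hQxi rfl
  -- all `x + b s` are in the class
  have hxs : polar Q x s = 0 := by rw [polar_comm]; exact hsx
  have hall : ∀ b : F, RM M Q x (x + b • s) := by
    intro b
    have h1 : polar Q s ((-(b * (polar Q y x)⁻¹)) • y) = 0 := by
      rw [polar_smul_right, hsy, smul_zero]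
    have h2 := siegel_mem_stabFamily c.dec (k := k) (by omega) c.fin hs
      ((D i).smul_mem (-(b * (polar Q y x)⁻¹)) hy) hQs h1
    have h3 := RM_map c ha h h2
    have e : siegel Q s ((-(b * (polar Q y x)⁻¹)) • y) hQs h1 x = x + b • s := by
      rw [siegel_apply, hsx, polar_smul_left, smul_eq_mul]
      have : -(b * (polar Q y x)⁻¹) * polar Q y x = -b := by
        field_simp
      rw [this]
      module
    rwa [e] at h3
  intro b
  have hp : polar Q s (((Q x)⁻¹ * (Q x * b)) • x) = 0 := by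
    rw [polar_smul_right, hsx, smul_zero]
  have e : (Q x)⁻¹ * (Q x * b) = b := by field_simp
  obtain ⟨_, hQ, h1⟩ := hall (Q x * b)
  rw [refl_mul_refl_eq_siegel hQx hQs hsx _ hQ hp] at h1
  have h2 : SM M Q s (((Q x)⁻¹ * (Q x * b)) • x) := ⟨hQs, hp, h1⟩
  rwa [e] at h2

/-- Failure of rigidity. -/
theorem exists_of_not_rigid (hR : ¬ Rigid Q D M) :
    ∃ i, ∃ a ∈ D i, ∃ x, RM M Q a x ∧ Q x = Q a ∧ ∀ j, x ∉ D j := by
  by_contra hcon
  push Not at hcon
  apply hR
  intro i a ha hQa b hQb hab hm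
  exact hcon i a ha b ⟨hQa, hQb, hm⟩ hab

theorem E_le_of_four [Finite F] (c : Ctx Q D p M k) (hk : 4 ≤ k) (hR : ¬ Rigid Q D M) :
    E Q ≤ M := by
  obtain ⟨j, a, ha, x, hax, -, hx⟩ := exists_of_not_rigid hR
  obtain ⟨i, hi⟩ : ∃ i, Q (p i x) ≠ 0 := by
    by_contra hcon
    push Not at hcon
    apply hax.right
    rw [Q_eq_sum c.dec]
    exact Finset.sum_eq_zero fun i _ => hcon i
  obtain ⟨s, hs, hs0, hQs, hxs⟩ := exists_sing_mem_perp (Q := Q) ![x] (D i) (by
    rw [c.fin]; omega)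
  have hxs' : polar Q x s = 0 := hxs 0
  exact E_le_of_good c ha hax (hx i) hi hs hs0 hQs (by rw [polar_comm]; exact hxs')

end Cfsg.Agent.H885.C2NonRigid
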