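import Cfsg.Agent.H885.C2Conn
import Cfsg.Agent.H886.Rigid

/-!
Rigid overgroups `M` of the stabiliser of an orthogonal decomposition `D` into isometric nondegenerate
subspaces of dimension `k ≥ 3`: they permute the members of `D`.
-/

set_option autoImplicit false
set_option linter.unusedSectionVars false

namespace Cfsg.Agent.H885.C2Rigid

open QuadraticMap Cfsg.Agent.LieClassical.OrthCore Cfsg.Agent.LieClassical.OrthTrans
  Cfsg.Agent.LieClassical.OrthFinite Cfsg.Agent.LieClassical.OrthSimple Cfsg.Agent.H883.Bridge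
  Cfsg.Agent.H885.RootT Cfsg.Agent.H885.Irr Cfsg.Agent.H885.C2Scalar Cfsg.Agent.H885.C2Conn
  Cfsg.Agent.H886.Decomp Cfsg.Agent.H886.Rigid

variable {F V : Type*} [Field F] [AddCommGroup V] [Module F V] {Q : QuadraticForm F V} {t : ℕ}
  {D : Fin t → Submodule F V} {p : Fin t → V →ₗ[F] V} {M : Subgroup (V ≃ₗ[F] V)} {k : ℕ}

/-- Overgroups of the stabiliser of an orthogonal decomposition, `k ≥ 3`. -/
structure Ctx (Q : QuadraticForm F V) (D : Fin t → Submodule F V) (p : Fin t → V →ₗ[F] V)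
    (M : Subgroup (V ≃ₗ[F] V)) (k : ℕ) : Prop where
  dec : Dec Q D p
  good : Good Q
  three : 3 ≤ k
  fin : ∀ i, Module.finrank F (D i) = k
  iso : ∀ i j, ∃ e : D i ≃ₗ[F] D j, ∀ x, Q (e x : V) = Q (x : V)
  conn : ∀ i, Conn Q (D i)
  le : stabFamily D ⊓ E Q ≤ M
  le_E : M ≤ E Q

/-- `r_a r_b ∈ M` with `a` in a member and `Q b = Q a` forces `b` in a member. -/
def Rigid (Q : QuadraticForm F V) (D : Fin t → Submodule F V) (M : Subgroup (V ≃ₗ[F] V)) : Prop :=
  ∀ i, ∀ a ∈ D i, ∀ (ha : Q a ≠ 0) (b : V) (hb : Q b ≠ 0), Q b = Q a →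
    refl Q a ha * refl Q b hb ∈ M → ∃ j, b ∈ D j

/-- Nonsingular vectors of a nondegenerate subspace orthogonal to few vectors. -/
theorem exists_nonsing_perp [FiniteDimensional F V] {W : Submodule F V} (hW : NdOn Q W) {n : ℕ}
    (u : Fin n → V) (hn : 2 * n < Module.finrank F W) :
    ∃ b ∈ W, (∀ i, polar Q (u i) b = 0) ∧ Q b ≠ 0 := by
  by_contra hcon
  push Not at hcon
  let f : W →ₗ[F] (Fin n → F) := LinearMap.pi fun i => (polarBilin Q (u i)).comp W.subtype
  have h1 := LinearMap.finrank_range_add_finrank_ker f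
  have h2 : Module.finrank F (LinearMap.range f) ≤ n := by
    refine le_trans (Submodule.finrank_le _) ?_
    rw [Module.finrank_fin_fun]
  have hQ0 : ∀ w ∈ LinearMap.ker f, Q (w : V) = 0 := by
    intro w hw
    refine hcon w w.2 fun i => ?_
    have := congrFun (LinearMap.mem_ker.1 hw) i
    simpa [f] using this
  have hnd : Nondeg (Cfsg.Agent.H883.Sub.res Q W) := Cfsg.Agent.H883.Sub.NondegOn.res hW
  have h3 := Cfsg.Agent.H883.Sub.finrank_perp hnd (LinearMap.ker f)
  have h4 : LinearMap.ker f ≤ Cfsg.Agent.H883.Sub.perp (Cfsg.Agent.H883.Sub.res Q W)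
      (LinearMap.ker f) := by
    intro w hw w' hw'
    show polar Q (w' : V) (w : V) = 0
    have h5 := hQ0 _ ((LinearMap.ker f).add_mem hw' hw)
    rw [polar]
    rw [hQ0 w hw, hQ0 w' hw']
    have h6 : Q ((w' : V) + (w : V)) = 0 := h5
    rw [h6]
    ring
  have h5 := Submodule.finrank_mono h4
  omega

theorem Q_eq_sum (h : Dec Q D p) (x : V) : Q x = ∑ i, Q (p i x) := by
  have key : ∀ s : Finset (Fin t), Q (∑ i ∈ s, p i x) = ∑ i ∈ s, Q (p i x) := by
    classical
    intro s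
    induction s using Finset.induction_on with
    | empty => simp
    | insert a s ha ih =>
      rw [Finset.sum_insert ha, Finset.sum_insert ha, Q_add, ih]
      have : polar Q (p a x) (∑ i ∈ s, p i x) = 0 := by
        have h1 : (polarBilin Q (p a x)) (∑ i ∈ s, p i x) = 0 := by
          rw [map_sum]
          refine Finset.sum_eq_zero fun i hi => ?_
          exact h.orth a i (fun he => ha (he ▸ hi)) _ (h.mem a x) _ (h.mem i x)
        exact h1
      rw [this, add_zero]
  have h1 := key Finset.univ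
  rwa [h.sum] at h1

namespace Ctx

variable [FiniteDimensional F V]

theorem le_O (c : Ctx Q D p M k) : M ≤ O Q := c.le_E.trans E_le_O

theorem nd (c : Ctx Q D p M k) (i : Fin t) : NdOn Q (D i) := c.dec.nondegOn c.good.nondeg i

theorem exists_norm_mem (c : Ctx Q D p M k) {i : Fin t} {a : V} (ha : a ∈ D i) (j : Fin t) :
    ∃ b ∈ D j, Q b = Q a := by
  obtain ⟨e, he⟩ := c.iso i j
  exact ⟨e ⟨a, ha⟩, (e ⟨a, ha⟩).2, he ⟨a, ha⟩⟩

theorem refl_mem (c : Ctx Q D p M k) {i j : Fin t} {a b : V} (ha : a ∈ D i) (hb : b ∈ D j)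
    (hQa : Q a ≠ 0) (hQb : Q b ≠ 0) (hab : Q a = Q b) : refl Q a hQa * refl Q b hQb ∈ M :=
  c.le (c.dec.refl_mul_refl_mem c.good ha hb hQa hQb hab)

/-- **The principle of rigid overgroups.** -/
theorem mem_stabFamily (c : Ctx Q D p M k) (hR : Rigid Q D M) {i j : Fin t} {a : V}
    (ha : a ∈ D i) (hQa : Q a ≠ 0) {m : V ≃ₗ[F] V} (hm : m ∈ M) (hma : m a ∈ D j) :
    m ∈ stabFamily D := by
  have hk := c.three
  refine c.dec.mem_stabFamily_of_forall (k := k) (by omega) c.fin fun l => ?_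
  obtain ⟨b₀, hb₀, hQb₀⟩ := c.exists_norm_mem ha l
  have hmO := c.le_O hm
  have key : ∀ b ∈ D l, Q b = Q a → ∃ j', m b ∈ D j' := by
    intro b hbl hQb
    have hQb0 : Q b ≠ 0 := by rw [hQb]; exact hQa
    have h1 := c.refl_mem ha hbl hQa hQb0 hQb.symm
    have ha' : Q (m a) ≠ 0 := by rw [mem_O.1 hmO]; exact hQa
    have hb' : Q (m b) ≠ 0 := by rw [mem_O.1 hmO]; exact hQb0
    have h2 := M.mul_mem (M.mul_mem hm h1) (M.inv_mem hm)
    rw [conj_refl_mul_refl hmO hQa hQb0 ha' hb'] at h2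
    exact hR j _ hma ha' _ hb' (by rw [mem_O.1 hmO, mem_O.1 hmO, hQb]) h2
  obtain ⟨j₀, hj₀⟩ := key b₀ hb₀ hQb₀
  refine ⟨j₀, fun x hx => ?_⟩
  refine c.conn l b₀ hb₀ (by rw [hQb₀]; exact hQa) ((D j₀).comap (m : V →ₗ[F] V)) ?_ hx
  intro y hy
  induction hy with
  | base => exact hj₀
  | @step c' d hc hd hQd hcd ih =>
    obtain ⟨j', hj'⟩ := key d hd (by rw [hQd, hQb₀])
    by_cases he : j₀ = j'
    · subst he
      exact hj'
    · exfalso
      rw [← polar_map hmO] at hcd
      exact hcd (c.dec.orth j₀ j' he _ ih _ hj')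

/-- The principle for a conjugate decomposition. -/
theorem mem_stabFamily_conj (c : Ctx Q D p M k) (hR : Rigid Q D M) {g : V ≃ₗ[F] V} (hg : g ∈ M)
    {i j : Fin t} {x : V} (hx : x ∈ (D i).map (g : V →ₗ[F] V)) (hQx : Q x ≠ 0) {m : V ≃ₗ[F] V}
    (hm : m ∈ M) (hmx : m x ∈ (D j).map (g : V →ₗ[F] V)) :
    m ∈ stabFamily (fun i => (D i).map (g : V →ₗ[F] V)) := by
  obtain ⟨a, ha, rfl⟩ := hx
  obtain ⟨b, hb, hbm⟩ := hmx
  have hQx' : Q (g a) ≠ 0 := hQx
  rw [mem_O.1 (c.le_O hg) a] at hQx'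
  refine Cfsg.Agent.H886.Decomp.mem_stabFamily_map ?_
  refine c.mem_stabFamily hR (j := j) ha hQx' (M.mul_mem (M.mul_mem (M.inv_mem hg) hm) hg) ?_
  have e : (g⁻¹ * m * g) a = b := by
    show g.symm (m (g a)) = b
    rw [LinearEquiv.symm_apply_eq]
    exact hbm.symm
  rw [e]
  exact hb

/-- Members of `D` and of `g D` have no common nonsingular vector. -/
theorem sing_of_mem_of_mem (c : Ctx Q D p M k) (hR : Rigid Q D M) {g : V ≃ₗ[F] V} (hg : g ∈ M)
    (hgD : g ∉ stabFamily D) {i j : Fin t} {z : V} (hz : z ∈ D j) (hgz : g z ∈ D i) :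
    Q (g z) = 0 := by
  by_contra hQ
  rw [mem_O.1 (c.le_O hg)] at hQ
  exact hgD (c.mem_stabFamily hR hz hQ hg hgz)

/-- The product of the reflections in the images of two vectors of the same norm. -/
theorem refl_map_mem (c : Ctx Q D p M k) {g : V ≃ₗ[F] V} (hg : g ∈ M) {i : Fin t} {v v' : V}
    (hv : v ∈ D i) (hv' : v' ∈ D i) (hQv : Q (g v) ≠ 0) (hQv' : Q (g v') ≠ 0) (hvv' : Q v = Q v') :
    refl Q (g v) hQv * refl Q (g v') hQv' ∈ M := by
  have hgO := c.le_O hg
  have h1 : Q v ≠ 0 := by rwa [mem_O.1 hgO] at hQv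
  have h2 : Q v' ≠ 0 := by rwa [mem_O.1 hgO] at hQv'
  rw [← conj_refl_mul_refl hgO h1 h2 hQv hQv']
  exact M.mul_mem (M.mul_mem hg (c.refl_mem hv hv' h1 h2 hvv')) (M.inv_mem hg)

theorem not_perp_pair (c : Ctx Q D p M k) (hR : Rigid Q D M) {g : V ≃ₗ[F] V} (hg : g ∈ M)
    (hgD : g ∉ stabFamily D) {i j : Fin t} {v v' b : V} (hv : v ∈ D i) (hv' : v' ∈ D i)
    (hQv : Q v ≠ 0) (hvv' : Q v = Q v') (hind : v ∉ Submodule.span F {v'}) (hb : b ∈ D j)
    (hvb : polar Q (g v) b = 0) (hv'b : polar Q (g v') b = 0) : Q b = 0 := by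
  by_contra hQb
  have hk := c.three
  have hgO := c.le_O hg
  have hQgv : Q (g v) ≠ 0 := by rw [mem_O.1 hgO]; exact hQv
  have hQgv' : Q (g v') ≠ 0 := by rw [mem_O.1 hgO, ← hvv']; exact hQv
  set u := refl Q (g v) hQgv * refl Q (g v') hQgv' with hu
  have huM : u ∈ M := c.refl_map_mem hg hv hv' hQgv hQgv' hvv'
  have hu_apply : ∀ x, u x = refl Q (g v) hQgv (refl Q (g v') hQgv' x) := fun x => rfl
  have hfix : ∀ x, polar Q (g v) x = 0 → polar Q (g v') x = 0 → u x = x := by
    intro x h1 h2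
    rw [hu_apply, refl_apply, refl_apply, h2]
    simp [h1]
  have hub : u b = b := hfix b hvb hv'b
  have hstab : u ∈ stabFamily D :=
    c.mem_stabFamily hR hb hQb huM (j := j) (by rw [hub]; exact hb)
  obtain ⟨σ, hσ⟩ := hstab
  -- `u` preserves every member
  have hpres : ∀ l, ∀ x ∈ D l, u x ∈ D l := by
    intro l
    obtain ⟨w, hw, hw0, hwp⟩ := exists_mem_perp (Q := Q) ![g v, g v'] (D l) (by
      rw [c.fin]; omega)
    have h1 : u w = w := hfix w (hwp 0) (hwp 1)
    have h2 : u w ∈ D (σ l) := by rw [← hσ l]; exact Submodule.mem_map_of_mem hw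
    rw [h1] at h2
    have h3 : l = σ l := by
      by_contra hne
      exact hw0 (c.dec.eq_zero_of_mem hne hw h2)
    intro x hx
    have h4 : u x ∈ D (σ l) := by rw [← hσ l]; exact Submodule.mem_map_of_mem hx
    rwa [← h3] at h4
  -- the displacement is singular
  have hdisp : ∀ x, ∃ z ∈ D i, u x - x = g z := by
    intro x
    refine ⟨-(((Q (g v'))⁻¹ * polar Q (g v') x) • v') -
      ((Q (g v))⁻¹ * polar Q (g v) (refl Q (g v') hQgv' x)) • v,
      (D i).sub_mem ((D i).neg_mem ((D i).smul_mem _ hv')) ((D i).smul_mem _ hv), ?_⟩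
    obtain ⟨y, hy⟩ : ∃ y, y = refl Q (g v') hQgv' x := ⟨_, rfl⟩
    have h1 : y - x = -(((Q (g v'))⁻¹ * polar Q (g v') x) • g v') := by
      rw [hy, refl_apply]
      abel
    rw [hu_apply, ← hy, refl_apply hQgv, map_sub, map_neg, map_smul, map_smul, sub_right_comm, h1]
  have hsing : ∀ x, Q (u x - x) = 0 := by
    intro x
    rw [Q_eq_sum c.dec]
    refine Finset.sum_eq_zero fun l _ => ?_
    have h1 : p l (u x - x) = u (p l x) - p l x := by
      rw [map_sub]
      congr 1
      have h2 : u x = ∑ m, u (p m x) := by rw [← map_sum, c.dec.sum]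
      rw [h2, map_sum, Finset.sum_eq_single l]
      · exact c.dec.self l _ (hpres l _ (c.dec.mem l x))
      · intro m _ hm
        exact c.dec.other l m hm.symm _ (hpres m _ (c.dec.mem m x))
      · intro h
        exact absurd (Finset.mem_univ l) h
    rw [h1]
    obtain ⟨z, hz, hz'⟩ := hdisp (p l x)
    rw [hz']
    refine c.sing_of_mem_of_mem hR hg hgD hz (i := l) ?_
    rw [← hz']
    exact (D l).sub_mem (hpres l _ (c.dec.mem l x)) (c.dec.mem l x)
  have hind' : g v ∉ Submodule.span F {g v'} := by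
    intro h
    obtain ⟨a, ha⟩ := Submodule.mem_span_singleton.1 h
    rw [← map_smul] at ha
    exact hind (Submodule.mem_span_singleton.2 ⟨a, g.injective ha⟩)
  obtain ⟨x, hx1, hx2⟩ := exists_sep_span c.good.nondeg hind'
  have hx3 : polar Q (g v') x = 0 := hx1 _ (Submodule.mem_span_singleton_self _)
  have h1 := hsing x
  have h2 : u x - x = -((Q (g v))⁻¹ • g v) := by
    rw [hu_apply, refl_apply hQgv' x, hx3, mul_zero, zero_smul, sub_zero, refl_apply, hx2, mul_one]
    abel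
  rw [h2, QuadraticMap.map_neg, QuadraticMap.map_smul, smul_eq_mul] at h1
  exact mul_ne_zero (mul_ne_zero (inv_ne_zero hQgv) (inv_ne_zero hQgv)) hQgv h1

/-- The projections `g D_i → D_j` are injective. -/
theorem proj_injective (c : Ctx Q D p M k) (hR : Rigid Q D M) {g : V ≃ₗ[F] V} (hg : g ∈ M)
    (hgD : g ∉ stabFamily D) (i j : Fin t) {z : V} (hz : z ∈ D i) (hpz : p j (g z) = 0) :
    z = 0 := by
  by_contra hz0
  have hk := c.three
  -- two independent vectors of the same norm with the same `j`-component up to scalars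
  obtain ⟨v, v', hv, hv', hQv, hvv', hind, w, hw1, hw2⟩ : ∃ v v' : V, v ∈ D i ∧ v' ∈ D i ∧
      Q v ≠ 0 ∧ Q v = Q v' ∧ v ∉ Submodule.span F {v'} ∧ ∃ w : V,
        (∀ b ∈ D j, polar Q w b = 0 → polar Q (g v) b = 0) ∧
        (∀ b ∈ D j, polar Q w b = 0 → polar Q (g v') b = 0) := by
    by_cases hQz : Q z = 0
    · obtain ⟨v, hv, hzv, hQv⟩ := exists_nonsing_perp (c.nd i) ![z] (by rw [c.fin]; omega)
      have hzv' : polar Q z v = 0 := hzv 0
      refine ⟨v, v + z, hv, (D i).add_mem hv hz, hQv, ?_, ?_, g v, fun b _ h => h, ?_⟩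
      · rw [Q_add, hQz, polar_comm Q v z, hzv']
        simp
      · intro h
        obtain ⟨a, ha⟩ := Submodule.mem_span_singleton.1 h
        rw [smul_add] at ha
        have ha0 : a ≠ 0 := by
          rintro rfl
          rw [zero_smul, zero_smul, add_zero] at ha
          rw [← ha] at hQv
          exact hQv (map_zero Q)
        have h1 : z = (a⁻¹ - 1) • v := by
          have h2 : a • z = (1 - a) • v := by
            rw [sub_smul, one_smul]
            exact eq_sub_of_add_eq' ha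
          have h3 : a⁻¹ • (a • z) = a⁻¹ • ((1 - a) • v) := by rw [h2]
          rw [smul_smul, smul_smul, inv_mul_cancel₀ ha0, one_smul, mul_sub, mul_one,
            inv_mul_cancel₀ ha0] at h3
          exact h3
        have h4 : a⁻¹ - 1 = 0 := by
          rw [h1, QuadraticMap.map_smul, smul_eq_mul] at hQz
          rcases mul_eq_zero.1 hQz with h | h
          · exact mul_self_eq_zero.1 h
          · exact absurd h hQv
        rw [h4, zero_smul] at h1
        exact hz0 h1
      · intro b hb hvb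
        have h1 : polar Q (g z) b = 0 := by
          rw [c.dec.polar_left j (g z) hb, hpz, polar_zero_left]
        rw [map_add, polar_add_left, hvb, h1, add_zero]
    · obtain ⟨v', hv', hQv', hind⟩ : ∃ v' ∈ D i, Q v' = Q z ∧ v' ∉ Submodule.span F {z} := by
        by_contra hcon
        push Not at hcon
        have h1 := c.conn i z hz hQz (Submodule.span F {z}) fun y hy =>
          hcon y (hy.mem hz) hy.norm
        have h2 := Submodule.finrank_mono h1
        rw [c.fin, finrank_span_singleton hz0] at h2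
        omega
      refine ⟨v', z, hv', hz, by rw [hQv']; exact hQz, hQv', hind, g v', fun b _ h => h, ?_⟩
      intro b hb _
      rw [c.dec.polar_left j (g z) hb, hpz, polar_zero_left]
  obtain ⟨b, hb, hwb, hQb⟩ := exists_nonsing_perp (c.nd j) ![w] (by rw [c.fin]; omega)
  have hwb' : polar Q w b = 0 := hwb 0
  exact hQb (c.not_perp_pair hR hg hgD hv hv' hQv hvv' hind hb (hw1 b hb hwb') (hw2 b hb hwb'))

/-- **Rigid overgroups permute the members**: `k ≥ 5`. -/
theorem rigid_of_five (c : Ctx Q D p M k) (hR : Rigid Q D M) (hk : 5 ≤ k) : M ≤ stabFamily D := by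
  intro g hg
  by_contra hgD
  have ht : 0 < t := by
    by_contra h0
    have h0' : t = 0 := by omega
    subst h0'
    apply hgD
    exact c.dec.mem_stabFamily_of_forall (k := k) (by omega) c.fin fun i => i.elim0
  let i : Fin t := ⟨0, ht⟩
  obtain ⟨v, hv, -, hQv⟩ := exists_nonsing_perp (c.nd i) (n := 0) ![] (by rw [c.fin]; omega)
  obtain ⟨v', hv', hQv', hind⟩ : ∃ v' ∈ D i, Q v' = Q v ∧ v' ∉ Submodule.span F {v} := by
    by_contra hcon
    push Not at hcon
    have h1 := c.conn i v hv hQv (Submodule.span F {v}) fun y hy => hcon y (hy.mem hv) hy.norm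
    have h2 := Submodule.finrank_mono h1
    rw [c.fin, finrank_span_singleton (ne_zero_of_Q hQv)] at h2
    omega
  obtain ⟨b, hb, hbp, hQb⟩ := exists_nonsing_perp (c.nd i) ![g v', g v] (by rw [c.fin]; omega)
  exact hQb (c.not_perp_pair hR hg hgD hv' hv (by rw [hQv']; exact hQv) hQv' hind hb (hbp 0)
    (hbp 1))

/-- **Rigid overgroups permute the members**: `t ≥ 3`. -/
theorem rigid_of_three [Finite F] (c : Ctx Q D p M k) (hR : Rigid Q D M) (ht : 3 ≤ t) :
    M ≤ stabFamily D := by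
  intro g hg
  by_contra hgD
  have hk := c.three
  have hgO := c.le_O hg
  let i₀ : Fin t := ⟨0, by omega⟩
  obtain ⟨v, hv, -, hQv⟩ := exists_nonsing_perp (c.nd i₀) (n := 0) ![] (by rw [c.fin]; omega)
  have hex : ∀ j, ∃ a ∈ D j, polar Q (g v) a = 0 ∧ Q a ≠ 0 := by
    intro j
    obtain ⟨a, ha, h1, h2⟩ := exists_nonsing_perp (c.nd j) ![g v] (by rw [c.fin]; omega)
    exact ⟨a, ha, h1 0, h2⟩
  choose a ha hva hQa using hex
  -- two of them have the same norm up to squares
  obtain ⟨i, j, l, hij, hil, hjl, b, hb, hvb, hQb, hQab⟩ : ∃ i j l : Fin t, i ≠ j ∧ i ≠ l ∧ j ≠ l ∧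
      ∃ b ∈ D j, polar Q (g v) b = 0 ∧ Q b ≠ 0 ∧ Q (a i) = Q b := by
    let i0 : Fin t := ⟨0, by omega⟩
    let i1 : Fin t := ⟨1, by omega⟩
    let i2 : Fin t := ⟨2, by omega⟩
    have h01 : i0 ≠ i1 := by simp [i0, i1, Fin.ext_iff]
    have h02 : i0 ≠ i2 := by simp [i0, i2, Fin.ext_iff]
    have h12 : i1 ≠ i2 := by simp [i1, i2, Fin.ext_iff]
    have key : ∀ i j l : Fin t, i ≠ j → i ≠ l → j ≠ l →
        (∃ m : F, m ≠ 0 ∧ m ^ 2 * Q (a i) = Q (a j)) → ∃ i j l : Fin t, i ≠ j ∧ i ≠ l ∧ j ≠ l ∧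
        ∃ b ∈ D j, polar Q (g v) b = 0 ∧ Q b ≠ 0 ∧ Q (a i) = Q b := by
      rintro i j l hij hil hjl ⟨m, hm, hma⟩
      refine ⟨j, i, l, hij.symm, hjl, hil, m • a i, (D i).smul_mem _ (ha i), ?_, ?_, ?_⟩
      · rw [polar_smul_right, hva, smul_zero]
      · rw [QuadraticMap.map_smul, smul_eq_mul]
        exact mul_ne_zero (mul_ne_zero hm hm) (hQa i)
      · rw [QuadraticMap.map_smul, smul_eq_mul, ← hma]
        ring
    rcases exists_sq_of_three (hQa i0) (hQa i1) (hQa i2) with h | h | h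
    · exact key i0 i1 i2 h01 h02 h12 h
    · exact key i0 i2 i1 h02 h01 h12.symm h
    · exact key i1 i2 i0 h12 h01.symm h02.symm h
  set u := refl Q (a i) (hQa i) * refl Q b hQb with hu
  have huM : u ∈ M := c.refl_mem (ha i) hb (hQa i) hQb hQab
  have hu_apply : ∀ x, u x = refl Q (a i) (hQa i) (refl Q b hQb x) := fun x => rfl
  have huv : u (g v) = g v := by
    rw [hu_apply, refl_apply hQb, polar_comm Q b, hvb, mul_zero, zero_smul, sub_zero, refl_apply,
      polar_comm Q (a i), hva, mul_zero, zero_smul, sub_zero]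
  have hgv : g v ∈ (D i₀).map (g : V →ₗ[F] V) := Submodule.mem_map_of_mem hv
  have hQgv : Q (g v) ≠ 0 := by rw [mem_O.1 hgO]; exact hQv
  have hstab := c.mem_stabFamily_conj hR hg hgv hQgv huM (j := i₀) (by rw [huv]; exact hgv)
  obtain ⟨σ, hσ⟩ := hstab
  have hσ₀ : σ i₀ = i₀ := by
    by_contra hne
    have h1 : u (g v) ∈ (D (σ i₀)).map (g : V →ₗ[F] V) := by
      have h2 := hσ i₀
      simp only at h2
      rw [← h2]
      exact Submodule.mem_map_of_mem hgv
    rw [huv] at h1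
    obtain ⟨v₁, hv₁, h2⟩ := h1
    have h3 : v₁ = v := g.injective h2
    rw [h3] at hv₁
    exact ne_zero_of_Q hQv (c.dec.eq_zero_of_mem hne hv₁ hv)
  have hpres : ∀ y ∈ D i₀, ∃ z ∈ D i₀, u (g y) = g z := by
    intro y hy
    have h1 : u (g y) ∈ (D (σ i₀)).map (g : V →ₗ[F] V) := by
      have h2 := hσ i₀
      simp only at h2
      rw [← h2]
      exact Submodule.mem_map_of_mem (Submodule.mem_map_of_mem hy)
    rw [hσ₀] at h1
    obtain ⟨z, hz, h2⟩ := h1
    exact ⟨z, hz, h2.symm⟩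
  -- `u` is the identity on `g D_{i₀}`
  have hdisp : ∀ x, x - u x = ((Q b)⁻¹ * polar Q b x) • b + ((Q (a i))⁻¹ * polar Q (a i) x) • a i := by
    intro x
    rw [hu_apply, refl_apply hQb, refl_apply (hQa i), polar_sub_right, polar_smul_right,
      c.dec.orth i j hij _ (ha i) _ hb, smul_zero, sub_zero]
    abel
  have hid : ∀ y ∈ D i₀, u (g y) = g y := by
    intro y hy
    obtain ⟨z, hz, hyz⟩ := hpres y hy
    have h1 : p l (g (y - z)) = 0 := by
      rw [map_sub, ← hyz, hdisp, map_add, map_smul, map_smul, c.dec.other l j hjl.symm b hb,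
        c.dec.other l i hil.symm _ (ha i)]
      simp
    have h2 := c.proj_injective hR hg hgD i₀ l ((D i₀).sub_mem hy hz) h1
    rw [hyz, sub_eq_zero.1 h2]
  have hperp : ∀ y ∈ D i₀, polar Q (a i) (g y) = 0 := by
    intro y hy
    have h1 := hdisp (g y)
    rw [hid y hy, sub_self] at h1
    have h2 := congrArg (p i) h1
    rw [map_zero, map_add, map_smul, map_smul, c.dec.other i j hij b hb, smul_zero, zero_add,
      c.dec.self i _ (ha i)] at h2
    rcases smul_eq_zero.1 h2.symm with h | h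
    · rcases mul_eq_zero.1 h with h | h
      · exact absurd (inv_eq_zero.1 h) (hQa i)
      · exact h
    · exact absurd h (ne_zero_of_Q (hQa i))
  -- surjectivity of the projection
  have hsurj : (D i₀).map ((p i) ∘ₗ (g : V →ₗ[F] V)) = D i := by
    refine Submodule.eq_of_le_of_finrank_eq ?_ ?_
    · rintro _ ⟨y, -, rfl⟩
      exact c.dec.mem i _
    · have hinj : Function.Injective (((p i) ∘ₗ (g : V →ₗ[F] V)).comp (D i₀).subtype) := by
        rw [← LinearMap.ker_eq_bot, eq_bot_iff]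
        intro y hy
        rw [LinearMap.mem_ker] at hy
        exact (Submodule.mem_bot F).2
          (Subtype.ext (c.proj_injective hR hg hgD i₀ i y.2 hy))
      have h1 : (D i₀).map ((p i) ∘ₗ (g : V →ₗ[F] V)) =
          LinearMap.range (((p i) ∘ₗ (g : V →ₗ[F] V)).comp (D i₀).subtype) := by
        rw [LinearMap.range_comp, Submodule.range_subtype]
      rw [h1, LinearMap.finrank_range_of_inj hinj, c.fin, c.fin]
  apply ne_zero_of_Q (hQa i)
  refine c.nd i _ (ha i) fun y hy => ?_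
  rw [← hsurj] at hy
  obtain ⟨x, hx, rfl⟩ := hy
  have h1 := hperp x hx
  rwa [c.dec.polar_right i (g x) (ha i)] at h1

end Ctx

end Cfsg.Agent.H885.C2Rigid
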