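import Cfsg.Agent.H885.C2NonRigid

/-!
Non-rigid overgroups of the stabiliser of an orthogonal decomposition into isometric nondegenerate
subspaces of dimension three, `q ≥ 5` odd: they contain `E Q`.
-/

set_option autoImplicit false
set_option linter.unusedSectionVars false

namespace Cfsg.Agent.H885.C2Three

open QuadraticMap Cfsg.Agent.LieClassical.OrthCore Cfsg.Agent.LieClassical.OrthTrans
  Cfsg.Agent.LieClassical.OrthFinite Cfsg.Agent.LieClassical.OrthSimple Cfsg.Agent.H883.Bridge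
  Cfsg.Agent.H885.RootT Cfsg.Agent.H885.Irr Cfsg.Agent.H885.C2Scalar Cfsg.Agent.H885.C2Conn
  Cfsg.Agent.H886.Decomp Cfsg.Agent.H885.C2Rigid Cfsg.Agent.H885.C2Trans
  Cfsg.Agent.H885.C2NonRigid

variable {F V : Type*} [Field F] [AddCommGroup V] [Module F V] {Q : QuadraticForm F V} {t : ℕ}
  {D : Fin t → Submodule F V} {p : Fin t → V →ₗ[F] V} {M : Subgroup (V ≃ₗ[F] V)} {k : ℕ}

/-- Two vectors of the same norm of `W`: if one is orthogonal to a singular vector, so is the other one. -/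
theorem exists_sing_perp {W : Submodule F V} {y z e : V} (hy : y ∈ W) (hz : z ∈ W) (he : e ∈ W)
    (he0 : e ≠ 0) (hQe : Q e = 0) (hez : polar Q e z = 0) (hyz : Q y = Q z) :
    ∃ s ∈ W, s ≠ 0 ∧ Q s = 0 ∧ polar Q s y = 0 := by
  by_cases hd : Q (y - z) = 0
  · by_cases hyz0 : y - z = 0
    · exact ⟨e, he, he0, hQe, by rw [sub_eq_zero.1 hyz0]; exact hez⟩
    · refine ⟨y - z, W.sub_mem hy hz, hyz0, hd, ?_⟩
      rw [sub_eq_add_neg, Q_add, QuadraticMap.map_neg, polar_neg_right, ← hyz] at hd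
      rw [polar_sub_left, polar_self', polar_comm Q z y]
      linear_combination hd
  · refine ⟨refl Q (y - z) hd e, ?_, ?_, ?_, ?_⟩
    · rw [refl_apply]
      exact W.sub_mem he (W.smul_mem _ (W.sub_mem hy hz))
    · intro h
      exact he0 ((refl Q (y - z) hd).map_eq_zero_iff.1 h)
    · rw [mem_O.1 (refl_mem_O hd)]; exact hQe
    · have h1 : refl Q (y - z) hd z = y := by
        have h2 : Q (y - z) = - polar Q (y - z) z := by
          rw [polar_sub_left, polar_self', sub_eq_add_neg, Q_add, QuadraticMap.map_neg,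
            polar_neg_right, hyz]
          ring
        have h3 : (Q (y - z))⁻¹ * polar Q (y - z) z = -1 := by
          have h4 : polar Q (y - z) z = - Q (y - z) := by rw [h2]; ring
          rw [h4]
          field_simp
        rw [refl_apply, h3]
        module
      have h2 : polar Q (refl Q (y - z) hd e) (refl Q (y - z) hd z) = 0 := by
        rw [polar_map (refl_mem_O hd)]; exact hez
      rwa [h1] at h2

variable [FiniteDimensional F V]

/-- The class of norms of the vectors orthogonal to singular vectors of their member. -/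
theorem exists_omega [Finite F] (c : Ctx Q D p M k) (i₀ : Fin t) :
    ∃ ω : F, ω ≠ 0 ∧ ∀ i, ∀ y ∈ D i, ∀ ρ : F, Q y = ω * ρ ^ 2 →
      ∃ s ∈ D i, s ≠ 0 ∧ Q s = 0 ∧ polar Q s y = 0 := by
  have hk := c.three
  obtain ⟨e, f, he, hf, hef⟩ := exists_hyp_mem c i₀
  have hQe := hef.left
  have hQf := hef.right
  have hef1 := hef.pair
  have h1 : NdOn Q (bp Q (bp Q (D i₀) e) f) := by
    refine ndOn_pair (c.nd i₀) he hf ?_
    rw [hQe, hQf, hef1]
    simp
  obtain ⟨x, hx, hx0, hxp⟩ := exists_mem_perp (Q := Q) ![e, f] (D i₀) (by rw [c.fin]; omega)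
  obtain ⟨w, ⟨⟨hw, hew⟩, hfw⟩, hQw⟩ := exists_nonsing h1 (x := x) ⟨⟨hx, hxp 0⟩, hxp 1⟩ hx0
  have hew' : polar Q e w = 0 := hew
  have he0 : e ≠ 0 := by
    rintro rfl
    rw [polar_zero_left] at hef1
    exact zero_ne_one hef1
  refine ⟨Q w, hQw, fun i y hy ρ hQy => ?_⟩
  obtain ⟨φ, hφ⟩ := c.iso i₀ i
  have hφp : polar Q (φ ⟨e, he⟩ : V) (φ ⟨w, hw⟩ : V) = 0 := by
    have h3 := hφ (⟨e, he⟩ + ⟨w, hw⟩)
    rw [map_add] at h3
    have h4 : Q ((φ ⟨e, he⟩ : V) + (φ ⟨w, hw⟩ : V)) = Q (e + w) := h3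
    rw [polar, h4, hφ ⟨e, he⟩, hφ ⟨w, hw⟩]
    exact hew'
  refine exists_sing_perp (z := ρ • (φ ⟨w, hw⟩ : V)) (e := (φ ⟨e, he⟩ : V)) hy
    ((D i).smul_mem _ (φ ⟨w, hw⟩).2) (φ ⟨e, he⟩).2 ?_ ?_ ?_ ?_
  · intro h0
    have h3 : φ ⟨e, he⟩ = 0 := Subtype.ext h0
    have h4 : (⟨e, he⟩ : D i₀) = 0 := φ.map_eq_zero_iff.1 h3
    exact he0 (congrArg Subtype.val h4)
  · rw [hφ ⟨e, he⟩]; exact hQe
  · rw [polar_smul_right, hφp, smul_zero]
  · rw [hQy, QuadraticMap.map_smul, hφ ⟨w, hw⟩, smul_eq_mul]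
    ring

/-- **The step.** -/
theorem exists_step [Finite F] (h2 : (2 : F) ≠ 0) (c : Ctx Q D p M k) {j : Fin t} {a x : V}
    (ha : a ∈ D j) (h : RM M Q a x) (hax : Q x = Q a) {i : Fin t} (hxi : p i x ≠ 0) {g : F}
    (hg : g ≠ 0) :
    ∃ x', RM M Q a x' ∧ Q x' = Q a ∧ (∀ l, l ≠ i → p l x' = -(g • p l x)) ∧
      Q (p i x') = Q a - g ^ 2 * (Q a - Q (p i x)) := by
  have hk := c.three
  have hQx := h.right
  have hQa := h.left
  have hμ : Q a ≠ 0 := hQa
  obtain ⟨v, hv, hQv, hvx⟩ : ∃ v ∈ D i, Q v = Q a ∧ polar Q (p i x) v = g * Q a := by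
    by_cases hn : Q (p i x) = 0
    · obtain ⟨e', he', hQe', hxe'⟩ := exists_partner (c.nd i) (c.dec.mem i x) hxi hn
      refine ⟨g⁻¹ • p i x + (g * Q a) • e', (D i).add_mem ((D i).smul_mem _ (c.dec.mem i x))
        ((D i).smul_mem _ he'), ?_, ?_⟩
      · rw [Q_add, QuadraticMap.map_smul, QuadraticMap.map_smul, polar_smul_left, polar_smul_right,
          hn, hQe', hxe']
        simp only [smul_eq_mul]
        field_simp
        ring
      · rw [polar_add_right, polar_smul_right, polar_smul_right, polar_self_of_sing hn, hxe']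
        simp
    · obtain ⟨w, hw, hxw, hQw⟩ := exists_norm_eq h2 (c.nd i) (c.dec.mem i x) hn
        (by rw [c.fin]; exact hk) (Q a - (g * Q a * (2 * Q (p i x))⁻¹) ^ 2 * Q (p i x))
      refine ⟨(g * Q a * (2 * Q (p i x))⁻¹) • p i x + w,
        (D i).add_mem ((D i).smul_mem _ (c.dec.mem i x)) hw, ?_, ?_⟩
      · rw [Q_add, QuadraticMap.map_smul, polar_smul_left, hxw, hQw]
        simp only [smul_eq_mul]
        ring
      · rw [polar_add_right, polar_smul_right, polar_self', hxw, smul_eq_mul]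
        have : 2 * Q (p i x) ≠ 0 := mul_ne_zero h2 hn
        field_simp
        ring
  have hxv : polar Q x v = g * Q a := by rw [c.dec.polar_left i x hv]; exact hvx
  have hQv0 : Q v ≠ 0 := by rw [hQv]; exact hμ
  have e : refl Q x hQx v = v - g • x := by
    rw [refl_apply, hxv, hax]
    congr 2
    field_simp
  have h3 := h.refl (RM_of_mem c ha hv hQa hQv.symm) hQx
  rw [e] at h3
  refine ⟨v - g • x, h3, ?_, ?_, ?_⟩
  · rw [← e, mem_O.1 (refl_mem_O hQx), hQv]
  · intro l hl
    rw [map_sub, map_smul, c.dec.other l i hl v hv, zero_sub]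
  · rw [map_sub, map_smul, c.dec.self i v hv, sub_eq_add_neg, Q_add, QuadraticMap.map_neg,
      QuadraticMap.map_smul, polar_neg_right, polar_smul_right, polar_comm Q v, hvx, hQv]
    simp only [smul_eq_mul]
    ring

theorem not_mem_of_two (c : Ctx Q D p M k) {x : V} {i j : Fin t} (hij : i ≠ j) (hi : p i x ≠ 0)
    (hj : p j x ≠ 0) (l : Fin t) : x ∉ D l := by
  intro hx
  by_cases hil : i = l
  · subst hil
    exact hj (c.dec.other j i hij.symm x hx)
  · exact hi (c.dec.other i l hil x hx)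

theorem sq_eq_of_card_five (hF : Nat.card F = 5) : (5 : F) = 0 ∧
    ∀ m : F, m ≠ 0 → m ^ 2 = 1 ∨ m ^ 2 = -1 := by
  have : Finite F := Nat.finite_of_card_ne_zero (by omega)
  have : Fintype F := Fintype.ofFinite F
  rw [Nat.card_eq_fintype_card] at hF
  refine ⟨?_, fun m hm => ?_⟩
  · have := FiniteField.cast_card_eq_zero F
    rw [hF] at this
    exact_mod_cast this
  · have h1 := FiniteField.pow_card_sub_one_eq_one m hm
    rw [hF] at h1
    have h2 : (m ^ 2 - 1) * (m ^ 2 + 1) = 0 := by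
      have : m ^ (5 - 1) = m ^ 4 := rfl
      rw [this] at h1
      linear_combination h1
    rcases mul_eq_zero.1 h2 with h | h
    · exact Or.inl (by linear_combination h)
    · exact Or.inr (by linear_combination h)

/-- **Dimension three, non-rigid.** -/
theorem E_le_of_three [Finite F] (h2 : (2 : F) ≠ 0) (hF : 5 ≤ Nat.card F) (c : Ctx Q D p M k)
    (hR : ¬ Rigid Q D M) : E Q ≤ M := by
  classical
  by_contra hcon
  obtain ⟨j₀, a, ha, x₀, hax₀, hQx₀, hx₀⟩ := exists_of_not_rigid hR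
  obtain ⟨ω, hω, hωs⟩ := exists_omega c j₀
  have hμ : Q a ≠ 0 := hax₀.left
  -- no good vectors
  have hgood : ∀ x, RM M Q a x → ∀ i, x ∉ D i → ∀ ρ : F, ρ ≠ 0 → Q (p i x) ≠ ω * ρ ^ 2 := by
    intro x hx i hxi ρ hρ hQ
    obtain ⟨s, hs, hs0, hQs, hsx⟩ := hωs i _ (c.dec.mem i x) ρ hQ
    refine hcon (E_le_of_good c ha hx hxi ?_ hs hs0 hQs ?_)
    · rw [hQ]
      exact mul_ne_zero hω (pow_ne_zero 2 hρ)
    · rw [c.dec.polar_right i x hs]
      exact hsx
  -- outside `D i` after a step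
  have hstep_out : ∀ x x' : V, ∀ i : Fin t, ∀ g : F, g ≠ 0 → x ∉ D i →
      (∀ l, l ≠ i → p l x' = -(g • p l x)) → x' ∉ D i := by
    intro x x' i g hg hxi hx' hmem
    obtain ⟨j, hji, hxj⟩ := c.dec.exists_ne hxi
    have h1 := c.dec.other j i hji x' hmem
    rw [hx' j hji, neg_eq_zero] at h1
    rcases smul_eq_zero.1 h1 with h | h
    · exact hg h
    · exact hxj h
  have hcard4 : 4 ≤ Nat.card F := by omega
  by_cases hπ : ∃ m : F, ω * m ^ 2 = Q a
  · -- `μ` in the class `π`
    have hcard : Nat.card F < 7 → Nat.card F = 5 := by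
      intro h7
      have : Fintype F := Fintype.ofFinite F
      have hodd : Fintype.card F % 2 = 1 := by
        refine FiniteField.odd_card_of_char_ne_two fun h => h2 ?_
        have : CharP F 2 := ringChar.of_eq h
        exact CharTwo.two_eq_zero
      rw [← Nat.card_eq_fintype_card] at hodd
      omega
    obtain ⟨m₀, hm₀⟩ := hπ
    have hm₀0 : m₀ ≠ 0 := by
      rintro rfl
      apply hμ
      rw [← hm₀]; ring
    have claim : ∀ x, RM M Q a x → Q x = Q a → (∀ j, x ∉ D j) → ∀ i, p i x ≠ 0 →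
        Nat.card F = 5 ∧ (Q (p i x) = 0 ∨ Q (p i x) = 2 * Q a) := by
      intro x hx hQx hxD i hxi
      have hn : Q (p i x) ≠ Q a := by
        rw [← hm₀]
        exact hgood x hx i (hxD i) m₀ hm₀0
      have hκ : Q a - Q (p i x) ≠ 0 := fun h => hn (by linear_combination -h)
      have hno : ¬ ∃ g ρ : F, g ≠ 0 ∧ ρ ≠ 0 ∧ (Q a - Q (p i x)) * g ^ 2 + ω * ρ ^ 2 = Q a := by
        rintro ⟨g, ρ, hg, hρ, he⟩
        obtain ⟨x', hx', hQx', hl, hi⟩ := exists_step h2 c ha hx hQx hxi hg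
        refine hgood x' hx' i (hstep_out x x' i g hg (hxD i) hl) ρ hρ ?_
        rw [hi]
        linear_combination -he
      have h7 : ¬ 7 ≤ Nat.card F := fun h7 =>
        hno (exists_conic h2 hκ hω hμ hcard4 (Or.inl h7))
      have h5 := hcard (by omega)
      refine ⟨h5, ?_⟩
      obtain ⟨-, hsq⟩ := sq_eq_of_card_five h5
      have h6 : ∃ m : F, (Q a - Q (p i x)) * m ^ 2 = Q a := by
        by_contra h6
        push Not at h6
        exact hno (exists_conic h2 hκ hω hμ hcard4 (Or.inr (Or.inl h6)))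
      obtain ⟨m, hm⟩ := h6
      have hm0 : m ≠ 0 := by
        rintro rfl
        apply hμ
        rw [← hm]; ring
      rcases hsq m hm0 with h | h
      · left
        rw [h] at hm
        linear_combination -hm
      · right
        rw [h] at hm
        linear_combination hm
    -- two components of norm `2 μ`
    obtain ⟨i, hi⟩ : ∃ i, Q (p i x₀) ≠ 0 := by
      by_contra hcon'
      push Not at hcon'
      apply hax₀.right
      rw [Q_eq_sum c.dec]
      exact Finset.sum_eq_zero fun i _ => hcon' i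
    have hpi : p i x₀ ≠ 0 := ne_zero_of_Q hi
    obtain ⟨hF5, hi'⟩ := claim x₀ hax₀ hQx₀ hx₀ i hpi
    obtain ⟨h50, hsq⟩ := sq_eq_of_card_five hF5
    have hi2 : Q (p i x₀) = 2 * Q a := hi'.resolve_left hi
    obtain ⟨j, hji, hj⟩ : ∃ j, j ≠ i ∧ Q (p j x₀) ≠ 0 := by
      by_contra hcon'
      push Not at hcon'
      have h1 := Q_eq_sum c.dec x₀
      rw [Finset.sum_eq_single i (fun l _ hl => hcon' l hl)
        (fun h => absurd (Finset.mem_univ i) h), hQx₀, hi2] at h1
      apply hμ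
      linear_combination -h1
    have hpj : p j x₀ ≠ 0 := ne_zero_of_Q hj
    have hj2 : Q (p j x₀) = 2 * Q a := (claim x₀ hax₀ hQx₀ hx₀ j hpj).2.resolve_left hj
    obtain ⟨x', hx', hQx', hl, hi''⟩ := exists_step h2 c ha hax₀ hQx₀ hpi h2
    have hQj : Q (p j x') = 3 * Q a := by
      rw [hl j hji, QuadraticMap.map_neg, QuadraticMap.map_smul, hj2, smul_eq_mul]
      linear_combination Q a * h50
    have h3 : (3 : F) ≠ 0 := by
      intro h
      apply h2
      linear_combination h50 - h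
    have hpj' : p j x' ≠ 0 := ne_zero_of_Q (by rw [hQj]; exact mul_ne_zero h3 hμ)
    have hx'D : ∀ l, x' ∉ D l := by
      intro l hmem
      by_cases hlj : l = j
      · subst hlj
        rw [c.dec.self l x' hmem, hQx'] at hQj
        have h4 : 2 * Q a = 0 := by linear_combination -hQj
        exact mul_ne_zero h2 hμ h4
      · exact hpj' (c.dec.other j l (Ne.symm hlj) x' hmem)
    rcases (claim x' hx' hQx' hx'D j hpj').2 with h | h
    · rw [hQj] at h
      exact mul_ne_zero h3 hμ h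
    · rw [hQj] at h
      apply hμ
      linear_combination h
  · -- `μ` outside the class `π`
    push Not at hπ
    have claim : ∀ x, RM M Q a x → Q x = Q a → (∀ j, x ∉ D j) → ∀ i, p i x ≠ 0 →
        Q (p i x) = Q a := by
      intro x hx hQx hxD i hxi
      by_contra hn
      have hκ : Q a - Q (p i x) ≠ 0 := fun h => hn (by linear_combination -h)
      obtain ⟨g, ρ, hg, hρ, he⟩ := exists_conic h2 hκ hω hμ hcard4 (Or.inr (Or.inr hπ))
      obtain ⟨x', hx', hQx', hl, hi⟩ := exists_step h2 c ha hx hQx hxi hg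
      refine hgood x' hx' i (hstep_out x x' i g hg (hxD i) hl) ρ hρ ?_
      rw [hi]
      linear_combination -he
    have hx₀0 : x₀ ≠ 0 := ne_zero_of_Q hax₀.right
    obtain ⟨i, hi⟩ : ∃ i, p i x₀ ≠ 0 := by
      by_contra hcon'
      push Not at hcon'
      exact hx₀0 (c.dec.eq_zero hcon')
    obtain ⟨j, hji, hj⟩ := c.dec.exists_ne (hx₀ i)
    obtain ⟨g, hg⟩ := exists_avoid ({0, 1, -1} : Finset F)
      (lt_of_le_of_lt Finset.card_le_three (by omega))
    simp only [Finset.mem_insert, Finset.mem_singleton, not_or] at hg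
    obtain ⟨hg0, hg1, hg2⟩ := hg
    obtain ⟨x', hx', hQx', hl, hi'⟩ := exists_step h2 c ha hax₀ hQx₀ hi hg0
    rw [claim x₀ hax₀ hQx₀ hx₀ i hi, sub_self, mul_zero, sub_zero] at hi'
    have hpi' : p i x' ≠ 0 := ne_zero_of_Q (by rw [hi']; exact hμ)
    have hpj' : p j x' ≠ 0 := by
      rw [hl j hji]
      exact neg_ne_zero.2 (smul_ne_zero hg0 hj)
    have h1 := claim x' hx' hQx' (not_mem_of_two c hji.symm hpi' hpj') j hpj'
    rw [hl j hji, QuadraticMap.map_neg, QuadraticMap.map_smul,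
      claim x₀ hax₀ hQx₀ hx₀ j hj, smul_eq_mul] at h1
    have h3 : (g - 1) * (g + 1) = 0 := by
      have h4 : ((g - 1) * (g + 1)) * Q a = 0 := by linear_combination h1
      exact (mul_eq_zero.1 h4).resolve_right hμ
    rcases mul_eq_zero.1 h3 with h | h
    · exact hg1 (by linear_combination h)
    · exact hg2 (by linear_combination h)

end Cfsg.Agent.H885.C2Three
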