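import Cfsg.Agent.H885.C2Rigid

/-!
Overgroups `M` of the stabiliser of an orthogonal decomposition `D`: block transpositions, and the criterion
`E_le_of_mem_T`: if `T_s(M)` (`s` singular in a member) contains a vector outside that member, then `M = E Q`.
-/

set_option autoImplicit false
set_option linter.unusedSectionVars false

namespace Cfsg.Agent.H885.C2Trans

open QuadraticMap Cfsg.Agent.LieClassical.OrthCore Cfsg.Agent.LieClassical.OrthTrans
  Cfsg.Agent.LieClassical.OrthFinite Cfsg.Agent.LieClassical.OrthSimple Cfsg.Agent.H883.Bridge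
  Cfsg.Agent.H885.RootT Cfsg.Agent.H885.Irr Cfsg.Agent.H885.C2Scalar Cfsg.Agent.H885.C2Conn
  Cfsg.Agent.H886.Decomp Cfsg.Agent.H886.Rigid Cfsg.Agent.H885.C2Rigid

variable {F V : Type*} [Field F] [AddCommGroup V] [Module F V] {Q : QuadraticForm F V} {t : ℕ}
  {D : Fin t → Submodule F V} {p : Fin t → V →ₗ[F] V} {M : Subgroup (V ≃ₗ[F] V)} {k : ℕ}

/-! ### Block transpositions -/

/-- The linear map exchanging `D j` and `D l` by `e`. -/
noncomputable def swapMap (h : Dec Q D p) (j l : Fin t) (e : D j ≃ₗ[F] D l) : V →ₗ[F] V :=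
  LinearMap.id - p j - p l +
    (D l).subtype ∘ₗ (e : D j →ₗ[F] D l) ∘ₗ (p j).codRestrict (D j) (h.mem j) +
    (D j).subtype ∘ₗ (e.symm : D l →ₗ[F] D j) ∘ₗ (p l).codRestrict (D l) (h.mem l)

theorem swapMap_apply (h : Dec Q D p) (j l : Fin t) (e : D j ≃ₗ[F] D l) (x : V) :
    swapMap h j l e x = x - p j x - p l x + (e ⟨p j x, h.mem j x⟩ : V) +
      (e.symm ⟨p l x, h.mem l x⟩ : V) := rfl

theorem proj_proj_ne (h : Dec Q D p) {i j : Fin t} (hij : i ≠ j) (x : V) : p i (p j x) = 0 :=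
  h.other i j hij _ (h.mem j x)

theorem proj_swapMap (h : Dec Q D p) {j l : Fin t} (hjl : j ≠ l) (e : D j ≃ₗ[F] D l) (x : V)
    {m : Fin t} (hmj : m ≠ j) (hml : m ≠ l) : p m (swapMap h j l e x) = p m x := by
  rw [swapMap_apply, map_add, map_add, map_sub, map_sub, proj_proj_ne h hmj, proj_proj_ne h hml,
    h.other m l hml _ (e _).2, h.other m j hmj _ (e.symm _).2]
  simp

theorem proj_swapMap_left (h : Dec Q D p) {j l : Fin t} (hjl : j ≠ l) (e : D j ≃ₗ[F] D l)
    (x : V) : p j (swapMap h j l e x) = (e.symm ⟨p l x, h.mem l x⟩ : V) := by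
  rw [swapMap_apply, map_add, map_add, map_sub, map_sub, proj_proj_ne h hjl,
    h.self j _ (h.mem j x), h.other j l hjl _ (e _).2, h.self j _ (e.symm _).2]
  simp

theorem proj_swapMap_right (h : Dec Q D p) {j l : Fin t} (hjl : j ≠ l) (e : D j ≃ₗ[F] D l)
    (x : V) : p l (swapMap h j l e x) = (e ⟨p j x, h.mem j x⟩ : V) := by
  rw [swapMap_apply, map_add, map_add, map_sub, map_sub, proj_proj_ne h hjl.symm,
    h.self l _ (h.mem l x), h.self l _ (e _).2, h.other l j hjl.symm _ (e.symm _).2]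
  simp

theorem swapMap_swapMap (h : Dec Q D p) {j l : Fin t} (hjl : j ≠ l) (e : D j ≃ₗ[F] D l) (x : V) :
    swapMap h j l e (swapMap h j l e x) = x := by
  apply h.ext
  intro m
  by_cases hmj : m = j
  · subst hmj
    rw [proj_swapMap_left h hjl]
    have : (⟨p l (swapMap h m l e x), h.mem l _⟩ : D l) = e ⟨p m x, h.mem m x⟩ :=
      Subtype.ext (proj_swapMap_right h hjl e x)
    rw [this, LinearEquiv.symm_apply_apply]
  · by_cases hml : m = l
    · subst hml
      rw [proj_swapMap_right h hjl]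
      have : (⟨p j (swapMap h j m e x), h.mem j _⟩ : D j) = e.symm ⟨p m x, h.mem m x⟩ :=
        Subtype.ext (proj_swapMap_left h hjl e x)
      rw [this, LinearEquiv.apply_symm_apply]
    · rw [proj_swapMap h hjl e _ hmj hml, proj_swapMap h hjl e _ hmj hml]

/-- The block transposition as a linear equivalence. -/
noncomputable def swapEquiv (h : Dec Q D p) {j l : Fin t} (hjl : j ≠ l) (e : D j ≃ₗ[F] D l) :
    V ≃ₗ[F] V :=
  LinearEquiv.ofInvolutive (swapMap h j l e) (swapMap_swapMap h hjl e)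

theorem swapEquiv_apply (h : Dec Q D p) {j l : Fin t} (hjl : j ≠ l) (e : D j ≃ₗ[F] D l) (x : V) :
    swapEquiv h hjl e x = swapMap h j l e x := rfl

theorem swapEquiv_mem_O (h : Dec Q D p) {j l : Fin t} (hjl : j ≠ l) (e : D j ≃ₗ[F] D l)
    (he : ∀ x, Q (e x : V) = Q (x : V)) : swapEquiv h hjl e ∈ O Q := by
  classical
  rw [mem_O]
  intro x
  rw [swapEquiv_apply, Q_eq_sum h, Q_eq_sum h x,
    ← Equiv.sum_comp (Equiv.swap j l) (fun m => Q (p m x))]
  refine Finset.sum_congr rfl fun m _ => ?_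
  by_cases hmj : m = j
  · subst hmj
    rw [proj_swapMap_left h hjl, Equiv.swap_apply_left]
    have := he (e.symm ⟨p l x, h.mem l x⟩)
    rw [LinearEquiv.apply_symm_apply] at this
    exact this.symm
  · by_cases hml : m = l
    · subst hml
      rw [proj_swapMap_right h hjl, Equiv.swap_apply_right]
      exact he _
    · rw [proj_swapMap h hjl e _ hmj hml, Equiv.swap_apply_of_ne_of_ne hmj hml]

theorem swapEquiv_left (h : Dec Q D p) {j l : Fin t} (hjl : j ≠ l) (e : D j ≃ₗ[F] D l) {x : V}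
    (hx : x ∈ D j) : swapEquiv h hjl e x = (e ⟨x, hx⟩ : V) := by
  rw [swapEquiv_apply]
  apply h.ext
  intro m
  by_cases hmj : m = j
  · subst hmj
    rw [proj_swapMap_left h hjl, h.other m l hjl _ (e _).2]
    have : (⟨p l x, h.mem l x⟩ : D l) = 0 := Subtype.ext (h.other l m hjl.symm x hx)
    rw [this, map_zero]
    rfl
  · by_cases hml : m = l
    · subst hml
      rw [proj_swapMap_right h hjl, h.self m _ (e _).2]
      congr 2
      exact Subtype.ext (h.self j x hx)
    · rw [proj_swapMap h hjl e _ hmj hml, h.other m j hmj x hx, h.other m l hml _ (e _).2]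

theorem swapEquiv_right (h : Dec Q D p) {j l : Fin t} (hjl : j ≠ l) (e : D j ≃ₗ[F] D l) {x : V}
    (hx : x ∈ D l) : swapEquiv h hjl e x = (e.symm ⟨x, hx⟩ : V) := by
  rw [swapEquiv_apply]
  apply h.ext
  intro m
  by_cases hmj : m = j
  · subst hmj
    rw [proj_swapMap_left h hjl, h.self m _ (e.symm _).2]
    congr 2
    exact Subtype.ext (h.self l x hx)
  · by_cases hml : m = l
    · subst hml
      rw [proj_swapMap_right h hjl, h.other m j hjl.symm _ (e.symm _).2]
      have : (⟨p j x, h.mem j x⟩ : D j) = 0 := Subtype.ext (h.other j m hjl x hx)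
      rw [this, map_zero]
      rfl
    · rw [proj_swapMap h hjl e _ hmj hml, h.other m l hml x hx, h.other m j hmj _ (e.symm _).2]

theorem swapEquiv_other (h : Dec Q D p) {j l : Fin t} (hjl : j ≠ l) (e : D j ≃ₗ[F] D l) {x : V}
    {i : Fin t} (hij : i ≠ j) (hil : i ≠ l) (hx : x ∈ D i) : swapEquiv h hjl e x = x := by
  rw [swapEquiv_apply]
  apply h.ext
  intro m
  by_cases hmj : m = j
  · subst hmj
    rw [proj_swapMap_left h hjl, h.other m i hij.symm x hx]
    have : (⟨p l x, h.mem l x⟩ : D l) = 0 := Subtype.ext (h.other l i hil.symm x hx)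
    rw [this, map_zero]
    rfl
  · by_cases hml : m = l
    · subst hml
      rw [proj_swapMap_right h hjl, h.other m i hil.symm x hx]
      have : (⟨p j x, h.mem j x⟩ : D j) = 0 := Subtype.ext (h.other j i hij.symm x hx)
      rw [this, map_zero]
      rfl
    · rw [proj_swapMap h hjl e _ hmj hml]

theorem swapEquiv_mem_stabFamily [FiniteDimensional F V] (h : Dec Q D p) (hk : 0 < k)
    (hfin : ∀ i, Module.finrank F (D i) = k) {j l : Fin t} (hjl : j ≠ l) (e : D j ≃ₗ[F] D l) :
    swapEquiv h hjl e ∈ stabFamily D := by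
  refine h.mem_stabFamily_of_forall hk hfin fun i => ?_
  by_cases hij : i = j
  · subst hij
    exact ⟨l, fun x hx => by rw [swapEquiv_left h hjl e hx]; exact (e _).2⟩
  · by_cases hil : i = l
    · subst hil
      exact ⟨j, fun x hx => by rw [swapEquiv_right h hjl e hx]; exact (e.symm _).2⟩
    · exact ⟨i, fun x hx => by rw [swapEquiv_other h hjl e hij hil hx]; exact hx⟩

/-- **Block transpositions in `stabFamily D ⊓ E Q`**: an element mapping `D j` onto `D l` and fixing all members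
`D i`, `i ≠ j, l`, pointwise. -/
theorem exists_swap [FiniteDimensional F V] (h : Dec Q D p) (hG : Good Q) (hk : 0 < k)
    (hfin : ∀ i, Module.finrank F (D i) = k) {j l : Fin t} (hjl : j ≠ l) {e : D j ≃ₗ[F] D l}
    (he : ∀ x, Q (e x : V) = Q (x : V)) {x y : V} (hx : x ∈ D l) (hy : y ∈ D l)
    (hxy : Hyp Q x y) :
    ∃ τ ∈ stabFamily D ⊓ E Q, (D j).map (τ : V →ₗ[F] V) = D l ∧
      ∀ i, i ≠ j → i ≠ l → ∀ z ∈ D i, τ z = z := by
  obtain ⟨r, hr, hrE, -⟩ := Cfsg.Agent.H883.Sub.exists_correct hG hx hy hxy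
    (swapEquiv_mem_O h hjl e he)
  have hrD : r ∈ stabFamily D := by
    have : Subgroup.closure {s : V ≃ₗ[F] V | ∃ (v : V) (hv : Q v ≠ 0), v ∈ D l ∧
        s = refl Q v hv} ≤ stabFamily D := by
      rw [Subgroup.closure_le]
      rintro _ ⟨v, hv, hvl, rfl⟩
      exact h.refl_mem_stabFamily hvl hv
    exact this hr
  have hrl : r ∈ stab (D l) := by
    have : Subgroup.closure {s : V ≃ₗ[F] V | ∃ (v : V) (hv : Q v ≠ 0), v ∈ D l ∧
        s = refl Q v hv} ≤ stab (D l) := by
      rw [Subgroup.closure_le]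
      rintro _ ⟨v, hv, hvl, rfl⟩
      exact mem_stab_of_le fun w hw => h.refl_mem hvl hv hw
    exact this hr
  refine ⟨r * swapEquiv h hjl e, ⟨(stabFamily D).mul_mem hrD
    (swapEquiv_mem_stabFamily h hk hfin hjl e), hrE⟩, ?_, ?_⟩
  · refine Submodule.eq_of_le_of_finrank_eq ?_ ?_
    · rintro _ ⟨z, hz, rfl⟩
      show r (swapEquiv h hjl e z) ∈ D l
      rw [swapEquiv_left h hjl e hz]
      exact (mem_stab.1 hrl _).1 (e _).2
    · rw [LinearEquiv.finrank_map_eq, hfin, hfin]
  · intro i hij hil z hz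
    show r (swapEquiv h hjl e z) = z
    rw [swapEquiv_other h hjl e hij hil hz]
    exact Cfsg.Agent.H883.Sub.refl_closure_fix hr fun y hy => h.orth l i hil.symm y hy z hz

/-! ### Siegel transformations of a member -/

theorem siegel_mem_stabFamily [FiniteDimensional F V] (h : Dec Q D p) (hk : 0 < k)
    (hfin : ∀ i, Module.finrank F (D i) = k) {i : Fin t} {s y : V} (hs : s ∈ D i) (hy : y ∈ D i)
    (hQs : Q s = 0) (hsy : polar Q s y = 0) : siegel Q s y hQs hsy ∈ stabFamily D ⊓ E Q := by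
  refine ⟨h.mem_stabFamily_of_forall hk hfin fun l => ⟨l, fun x hx => ?_⟩, siegel_mem_E _ _⟩
  by_cases hil : i = l
  · subst hil
    rw [siegel_apply]
    exact (D i).sub_mem ((D i).sub_mem ((D i).add_mem hx ((D i).smul_mem _ hy))
      ((D i).smul_mem _ hs)) ((D i).smul_mem _ hs)
  · rw [siegel_apply, h.orth i l hil s hs x hx, h.orth i l hil y hy x hx]
    simpa using hx

variable [FiniteDimensional F V]

theorem mem_T_self (c : Ctx Q D p M k) {i : Fin t} {s y : V} (hs : s ∈ D i) (hy : y ∈ D i)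
    (hQs : Q s = 0) (hsy : polar Q s y = 0) : y ∈ T M Q s hQs := by
  have hk := c.three
  intro a
  have h1 : polar Q s (a • y) = 0 := by rw [polar_smul_right, hsy, smul_zero]
  exact ⟨hQs, h1, c.le (siegel_mem_stabFamily c.dec (by omega) c.fin hs ((D i).smul_mem a hy)
    hQs h1)⟩

theorem exists_hyp_mem [Finite F] (c : Ctx Q D p M k) (l : Fin t) :
    ∃ x y, x ∈ D l ∧ y ∈ D l ∧ Hyp Q x y := by
  have hk := c.three
  obtain ⟨x, hx, hx0, hQx, -⟩ := exists_sing_mem_perp (Q := Q) ![] (D l) (by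
    rw [c.fin]; omega)
  obtain ⟨y, hy, hQy, hxy⟩ := exists_partner (c.nd l) hx hx0 hQx
  exact ⟨x, y, hx, hy, ⟨hQx, hQy, hxy⟩⟩

theorem exists_swap_mem [Finite F] (c : Ctx Q D p M k) {j l : Fin t} (hjl : j ≠ l) :
    ∃ τ ∈ M, (D j).map (τ : V →ₗ[F] V) = D l ∧ ∀ i, i ≠ j → i ≠ l → ∀ z ∈ D i, τ z = z := by
  have hk := c.three
  obtain ⟨x, y, hx, hy, hxy⟩ := exists_hyp_mem c l
  obtain ⟨e, he⟩ := c.iso j l
  obtain ⟨τ, hτ, h1, h2⟩ := exists_swap c.dec c.good (k := k) (by omega) c.fin hjl he hx hy hxy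
  exact ⟨τ, c.le hτ, h1, h2⟩

/-- `T_s(M)` contains `D j` if it contains a vector with nonzero `j`-component. -/
theorem le_T_of_mem (c : Ctx Q D p M k) {i j : Fin t} (hij : i ≠ j) {s x : V} (hs : s ∈ D i)
    (hQs : Q s = 0) (hx : x ∈ T M Q s hQs) (hxj : p j x ≠ 0) : D j ≤ T M Q s hQs := by
  have hk := c.three
  have hMO := c.le_O
  obtain ⟨v', hv', hxv', hQv'⟩ := exists_nonsing_perp (c.nd j) ![x] (by rw [c.fin]; omega)
  have hxv'0 : polar Q x v' = 0 := hxv' 0
  obtain ⟨v, hv, hQv, hvx⟩ := (c.conn j).exists_polar_ne (c.nd j) hv' hQv' (c.dec.mem j x) hxj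
  have hvx' : polar Q v x ≠ 0 := by rwa [c.dec.polar_right j x hv]
  have hQv0 : Q v ≠ 0 := by rw [hQv]; exact hQv'
  have hsfix : ∀ y ∈ D j, ∀ hy : Q y ≠ 0, refl Q y hy s = s := by
    intro y hy hQy
    rw [refl_apply, c.dec.orth j i hij.symm y hy s hs]
    simp
  have hinv : ∀ y z : V, y ∈ D j → z ∈ D j → ∀ (hy : Q y ≠ 0) (hz : Q z ≠ 0), Q y = Q z →
      ∀ w ∈ T M Q s hQs, refl Q y hy (refl Q z hz w) ∈ T M Q s hQs := by
    intro y z hy hz hQy hQz hyz w hw
    have hm := c.refl_mem hy hz hQy hQz hyz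
    have e1 : (refl Q y hQy * refl Q z hQz) s = s := by
      show refl Q y hQy (refl Q z hQz s) = s
      rw [hsfix z hz hQz, hsfix y hy hQy]
    have h1 := T_conj hm (hMO hm) hw (by rw [e1]; exact hQs)
    have h2 : (refl Q y hQy * refl Q z hQz) w ∈ T M Q s hQs := by simpa only [e1] using h1
    exact h2
  have hvT : v ∈ T M Q s hQs := by
    have h1 := hinv v v' hv hv' hQv0 hQv' hQv x hx
    have h2 : refl Q v' hQv' x = x := by
      rw [refl_apply, polar_comm Q v' x, hxv'0]
      simp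
    rw [h2, refl_apply] at h1
    have h3 := Submodule.sub_mem _ hx h1
    rw [sub_sub_cancel] at h3
    exact ((T M Q s hQs).smul_mem_iff (mul_ne_zero (inv_ne_zero hQv0) hvx')).1 h3
  refine c.conn j v hv hQv0 _ fun y hy => ?_
  induction hy with
  | base => exact hvT
  | @step c' d hc hd hQd hcd ih =>
    have hc' := hc.mem hv
    have hQc : Q c' = Q v := hc.norm
    have hQc0 : Q c' ≠ 0 := by rw [hQc]; exact hQv0
    have hQd0 : Q d ≠ 0 := by rw [hQd]; exact hQv0
    have h1 := hinv d c' hd hc' hQd0 hQc0 (by rw [hQd, hQc]) c' ih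
    have h2 : refl Q c' hQc0 c' = -c' := by
      rw [refl_apply, polar_self']
      have : (Q c')⁻¹ * (2 * Q c') = 2 := by field_simp
      rw [this, two_smul]
      abel
    rw [h2, map_neg, refl_apply] at h1
    have h3 := Submodule.add_mem _ ih h1
    have h4 : c' + -(c' - ((Q d)⁻¹ * polar Q d c') • d) = ((Q d)⁻¹ * polar Q d c') • d := by abel
    rw [h4] at h3
    refine ((T M Q s hQs).smul_mem_iff (mul_ne_zero (inv_ne_zero hQd0) ?_)).1 h3
    rw [polar_comm]
    exact hcd

/-- **The criterion.** -/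
theorem E_le_of_mem_T [Finite F] (c : Ctx Q D p M k) {i : Fin t} {s x : V} (hs : s ∈ D i)
    (hs0 : s ≠ 0) (hQs : Q s = 0) (hx : x ∈ T M Q s hQs) (hxi : x ∉ D i) : E Q ≤ M := by
  have hk := c.three
  have hMO := c.le_O
  obtain ⟨j, hji, hxj⟩ := c.dec.exists_ne hxi
  have hj : D j ≤ T M Q s hQs := le_T_of_mem c hji.symm hs hQs hx hxj
  have hall : ∀ l, l ≠ i → D l ≤ T M Q s hQs := by
    intro l hli
    by_cases hjl : j = l
    · subst hjl
      exact hj
    · obtain ⟨τ, hτ, hτ1, hτ2⟩ := exists_swap_mem c hjl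
      have hτs : τ s = s := hτ2 i hji.symm hli.symm s hs
      rw [← hτ1]
      rintro _ ⟨z, hz, rfl⟩
      have h1 := T_conj hτ (hMO hτ) (hj hz) (by rw [hτs]; exact hQs)
      show τ z ∈ T M Q s hQs
      simpa only [hτs] using h1
  have hfull : Full M Q s := by
    refine full_of_T_eq (hx := hQs) fun w hw => ?_
    rw [← c.dec.sum w]
    refine Submodule.sum_mem _ fun l _ => ?_
    by_cases hli : l = i
    · subst hli
      refine mem_T_self c hs (c.dec.mem l w) hQs ?_
      rw [← c.dec.polar_right l w hs]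
      exact hw
    · exact hall l hli (c.dec.mem l w)
  obtain ⟨s', hs', hQs', hss'⟩ := exists_partner (c.nd i) hs hs0 hQs
  have hQd : Q (s - s') = -1 := by
    rw [sub_eq_add_neg, Q_add, QuadraticMap.map_neg, polar_neg_right, hQs, hQs', hss']
    simp
  have hd : s - s' ∈ D i := (D i).sub_mem hs hs'
  have hQd0 : Q (s - s') ≠ 0 := by rw [hQd]; exact neg_ne_zero.2 one_ne_zero
  obtain ⟨b, hb, hQb⟩ := c.exists_norm_mem hd j
  have hQb0 : Q b ≠ 0 := by rw [hQb]; exact hQd0
  have hm := c.refl_mem hd hb hQd0 hQb0 hQb.symm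
  have e1 : (refl Q (s - s') hQd0 * refl Q b hQb0) s = s' := by
    show refl Q (s - s') hQd0 (refl Q b hQb0 s) = s'
    have e0 : refl Q b hQb0 s = s := by
      rw [refl_apply, c.dec.orth j i hji b hb s hs]
      simp
    rw [e0, refl_apply, hQd, polar_sub_left, polar_self_of_sing hQs, polar_comm Q s' s, hss']
    have : ((-1 : F))⁻¹ * (0 - 1) = 1 := by
      rw [zero_sub]
      exact inv_mul_cancel₀ (neg_ne_zero.2 one_ne_zero)
    rw [this, one_smul]
    abel
  have hfull' : Full M Q s' := by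
    rw [← e1]
    exact hfull.conj hm (hMO hm)
  exact E_le_of_full c.good hMO hfull hfull' (by rw [hss']; exact one_ne_zero)

end Cfsg.Agent.H885.C2Trans
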