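import Cfsg.Agent.H885.HypRigid
import Cfsg.Agent.H885.C2Main
import Cfsg.Agent.H886.HypNonRigid2

/-!
**The stabiliser in `Ω` of an orthogonal decomposition into hyperbolic planes is maximal** (`|F| ≥ 7`, at least
six planes; the non-rigid half is due to helper886).
-/

set_option autoImplicit false
set_option linter.unusedSectionVars false

namespace Cfsg.Agent.H885.HypMain

open QuadraticMap Cfsg.Agent.LieClassical.OrthCore Cfsg.Agent.LieClassical.OrthTrans
  Cfsg.Agent.LieClassical.OrthFinite Cfsg.Agent.LieClassical.OrthSimple Cfsg.Agent.H883.Bridge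
  Cfsg.Agent.H885.RootT Cfsg.Agent.H885.Irr Cfsg.Agent.H885.C2Scalar Cfsg.Agent.H885.C2Conn
  Cfsg.Agent.H886.Decomp Cfsg.Agent.H885.C2Trans
  Cfsg.Agent.H885.C2NonRigid Cfsg.Agent.H885.HypCore Cfsg.Agent.H885.HypRigid
  Cfsg.Agent.H885.C2Main

section Free

variable {F V : Type*} [Field F] [AddCommGroup V] [Module F V] {Q : QuadraticForm F V} {t : ℕ}
  {D : Fin t → Submodule F V}

/-- **Maximality, coordinate free.** -/
theorem maximal_free [Finite F] [FiniteDimensional F V] (hq : 7 ≤ Nat.card F) (hG : Good Q)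
    (horth : ∀ i j, i ≠ j → ∀ x ∈ D i, ∀ y ∈ D j, polar Q x y = 0) (hspan : iSup D = ⊤)
    (hrank : ∀ i, Module.finrank F (D i) = 2) (hsing : ∀ i, ∃ x ∈ D i, x ≠ 0 ∧ Q x = 0)
    (hiso : ∀ i j, ∃ e : D i ≃ₗ[F] D j, ∀ z : D i, Q (e z : V) = Q (z : V)) (ht : 6 ≤ t) :
    Cfsg.Geo.IsMaximalIn (E Q) (stabFamily D ⊓ E Q) := by
  obtain ⟨p, h⟩ := exists_dec hG.nondeg horth hspan
  have hnd : ∀ i, NdOn Q (D i) := fun i => h.nondegOn hG.nondeg i
  have hpair : ∀ i, ∃ e f, e ∈ D i ∧ f ∈ D i ∧ Hyp Q e f := by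
    intro i
    obtain ⟨x, hx, hx0, hQx⟩ := hsing i
    obtain ⟨y, hy, hQy, hxy⟩ := exists_partner (hnd i) hx hx0 hQx
    exact ⟨x, y, hx, hy, ⟨hQx, hQy, hxy⟩⟩
  choose e f he hf hyp using hpair
  have hHB : ∀ i, ∃ e f, Cfsg.Agent.H886.HypPl.HB Q (D i) e f := fun i =>
    ⟨e i, f i, he i, hf i, (hyp i).left, (hyp i).right, (hyp i).pair, fun y hy =>
      ⟨_, _, coord (hrank i) (he i) (hf i) (hyp i) hy⟩⟩
  refine ⟨lt_of_le_of_ne inf_le_right fun heq => ?_, fun M hM1 hM2 => ?_⟩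
  · refine not_E_le h (by omega) (fun i => ⟨e i, f i, he i, hf i, hyp i⟩) ?_
    rw [← heq]
    exact inf_le_left
  · have key : M ≤ stabFamily D ∨ E Q ≤ M := by
      by_cases hR : Cfsg.Agent.H886.Rigid.Rigid Q D M
      · have c : HCtx Q D p e f M :=
          ⟨h, hG, hrank, he, hf, hyp, hiso, by omega, hq, hM1, hM2⟩
        refine HCtx'.le_or_le c (by omega) ?_
        intro i a ha hQa b hQb _ hm
        exact hR i a ha hQa b hQb hm
      · exact Or.inr (Cfsg.Agent.H886.HypNonRigid.E_le_of_not_rigid hq hG h hHB hiso ht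
          (hM2.trans E_le_O) hM1 hR)
    rcases key with h6 | h6
    · left
      exact le_antisymm (le_inf h6 hM2) hM1
    · right
      exact le_antisymm hM2 h6

end Free

section Geo

variable {ι : Type} [Fintype ι] [DecidableEq ι] {F : Type*} [Field F]

/-- **Orthogonal decompositions into hyperbolic planes: the stabiliser in `Ω` is maximal.** -/
theorem decomposition_maximal [Fintype F] (hq : 7 ≤ Fintype.card F) {Q : (ι → F) → F}
    (hQ : Cfsg.Geo.IsNondegenerateQuadraticForm Q) (hn : 12 ≤ Fintype.card ι) {t : ℕ}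
    {D : Fin t → Submodule F (ι → F)} (hD : Cfsg.Geo.IsOrthogonalMDecomposition Q 2 D)
    (hplus : ∀ i, Cfsg.Geo.IsPlusTypeOn Q (D i)) :
    Cfsg.Geo.IsMaximalIn (Cfsg.Geo.omegaGL Q)
      (Cfsg.Geo.decompositionStabilizer D ⊓ Cfsg.Geo.omegaGL Q) := by
  have htk := Cfsg.Agent.H886.finrank_mdecomposition hD.decomp.decomp
  refine decompositionStabilizer_maximal hQ (by omega) D ?_
  rintro Q' rfl hG
  refine maximal_free (by rw [Nat.card_eq_fintype_card]; exact hq) hG
    (fun i j hij x hx y hy => hD.decomp.orthogonal i j hij x hx y hy)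
    hD.decomp.decomp.iSup_eq_top hD.decomp.decomp.finrank_eq ?_
    (fun i j => hD.isometric i j) (by omega)
  intro i
  obtain ⟨U, hU, hUs, hUd⟩ := hplus i
  rw [hD.decomp.decomp.finrank_eq] at hUd
  have hU1 : U ≠ ⊥ := by
    rintro rfl
    rw [finrank_bot] at hUd
    omega
  obtain ⟨x, hx, hx0⟩ := Submodule.exists_mem_ne_zero_of_ne_bot hU1
  exact ⟨x, hU hx, hx0, hUs x hx⟩

end Geo

end Cfsg.Agent.H885.HypMain
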