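import Cfsg.Agent.H885.NondegGeo

/-!
The stabiliser in `Ω(Q)` of a hyperbolic plane `⟨e, f⟩` over a field of at most three elements is contained
properly in the stabiliser of the line `⟨e + f⟩`, which is proper.
-/

set_option autoImplicit false

namespace Cfsg.Agent.H885.HypPlane

open QuadraticMap Cfsg.Agent.LieClassical.OrthCore Cfsg.Agent.LieClassical.OrthTrans
  Cfsg.Agent.LieClassical.OrthFinite Cfsg.Agent.H885.RootT
  Cfsg.Agent.H885.Irr Cfsg.Agent.H883.Bridge Cfsg.Agent.H885.Nondeg Cfsg.Agent.H885.NondegGeo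

variable {F V : Type*} [Field F] [AddCommGroup V] [Module F V] {Q : QuadraticForm F V}

/-- The line stabiliser lies strictly between. -/
theorem exists_between [Finite F] [Module.Finite F V] (hQ : Nondeg Q)
    (hd : 5 ≤ Module.finrank F V) (hF : ∀ a : F, a ≠ 0 → a * a = 1) {W : Submodule F V}
    (hW2 : Module.finrank F W = 2) (hW : NdOn Q W) {e : V} (he : e ∈ W) (he0 : e ≠ 0)
    (hQe : Q e = 0) :
    ∃ L : Subgroup (V ≃ₗ[F] V), stab W ⊓ E Q < L ∧ L < E Q := by
  obtain ⟨f₀, hf₀, hef₀⟩ := hW.exists_ne he he0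
  obtain ⟨f, hfW, hyp⟩ : ∃ f ∈ W, Hyp Q e f := by
    obtain ⟨f₁, hf₁W, h1⟩ : ∃ f₁ ∈ W, polar Q e f₁ = 1 :=
      ⟨(polar Q e f₀)⁻¹ • f₀, W.smul_mem _ hf₀,
        by rw [polar_smul_right, smul_eq_mul, inv_mul_cancel₀ hef₀]⟩
    refine ⟨f₁ + (-Q f₁) • e, W.add_mem hf₁W (W.smul_mem _ he), hQe, ?_, ?_⟩
    · rw [Q_add, QuadraticMap.map_smul, hQe, polar_smul_right, polar_comm Q f₁ e, h1]
      simp
    · rw [polar_add_right, polar_smul_right, polar_self_of_sing hQe, h1]
      simp
  -- `W = ⟨e, f⟩`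
  have hspan : ∀ w ∈ W, ∃ a b : F, w = a • e + b • f := by
    intro w hw
    have hli : LinearIndependent F ![(⟨e, he⟩ : W), ⟨f, hfW⟩] := by
      rw [LinearIndependent.pair_iff]
      intro s t hst
      have hst' : s • e + t • f = 0 := congrArg Subtype.val hst
      have h1 : polar Q e (s • e + t • f) = 0 := by rw [hst', polar_zero_right]
      have h2 : polar Q f (s • e + t • f) = 0 := by rw [hst', polar_zero_right]
      rw [polar_add_right, polar_smul_right, polar_smul_right, hyp.polar_left, hyp.pair] at h1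
      rw [polar_add_right, polar_smul_right, polar_smul_right, hyp.polar_right, hyp.pair'] at h2
      simp only [smul_eq_mul, mul_zero, mul_one, zero_add, add_zero] at h1 h2
      exact ⟨h2, h1⟩
    have : Nonempty (Fin 2) := ⟨0⟩
    let B := basisOfLinearIndependentOfCardEqFinrank hli (by rw [hW2]; rfl)
    have h1 := B.sum_repr ⟨w, hw⟩
    rw [Fin.sum_univ_two] at h1
    have hB0 : B 0 = ⟨e, he⟩ := by simp [B]
    have hB1 : B 1 = ⟨f, hfW⟩ := by simp [B]
    rw [hB0, hB1] at h1
    exact ⟨_, _, (congrArg Subtype.val h1).symm⟩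
  have hQef : Q (e + f) = 1 := by rw [Q_add, hQe, hyp.right, hyp.pair]; simp
  have hsp := split_perp hW
  have hfr := hsp.finrank hQ
  obtain ⟨x, hxU, hx0, hQx, -⟩ := exists_sing_mem_perp (Q := Q) ![] (perp Q W) (by omega)
  have hxW : x ∉ W := by
    intro h
    have h1 : x ∈ W ⊓ perp Q W := ⟨h, hxU⟩
    rw [hsp.inf hQ, Submodule.mem_bot] at h1
    exact hx0 h1
  have hxe : polar Q x e = 0 := hsp.perp' hxU he
  have hxf : polar Q x f = 0 := hsp.perp' hxU hfW
  have hline : ∀ c : F, c • (e + f) ∈ W := fun c => W.smul_mem _ (W.add_mem he hfW)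
  refine ⟨stab (Submodule.span F {e + f}) ⊓ E Q, lt_of_le_of_ne ?_ ?_,
    lt_of_le_of_ne inf_le_right ?_⟩
  · rintro g ⟨hg, hgE⟩
    refine ⟨mem_stab_of_le fun v hv => ?_, hgE⟩
    obtain ⟨c, rfl⟩ := Submodule.mem_span_singleton.1 hv
    rw [map_smul]
    apply Submodule.smul_mem
    obtain ⟨a, b, hab⟩ := hspan (g (e + f)) ((hg _).1 (W.add_mem he hfW))
    have h1 : Q (g (e + f)) = 1 := by rw [mem_O.1 (E_le_O hgE), hQef]
    rw [hab, Q_add, QuadraticMap.map_smul, QuadraticMap.map_smul, polar_smul_left,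
      polar_smul_right, hQe, hyp.right, hyp.pair] at h1
    simp only [smul_eq_mul, mul_zero, add_zero, zero_add, mul_one] at h1
    have ha : a ≠ 0 := by
      rintro rfl
      rw [zero_mul] at h1
      exact zero_ne_one h1
    have hba : b = a := by
      have h2 := hF a ha
      calc b = (a * a) * b := by rw [h2, one_mul]
        _ = a * (a * b) := by ring
        _ = a := by rw [h1, mul_one]
    rw [hab, hba, ← smul_add]
    exact Submodule.smul_mem _ _ (Submodule.mem_span_singleton_self _)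
  · intro heq
    have h0 : polar Q x (e - f) = 0 := by rw [polar_sub_right, hxe, hxf, sub_zero]
    have h1 : polar Q (e - f) (e + f) = 0 := by
      rw [polar_sub_left, polar_add_right, polar_add_right, hyp.polar_left, hyp.polar_right,
        hyp.pair, hyp.pair']
      ring
    have hm : siegel Q x (e - f) hQx h0 ∈ stab (Submodule.span F {e + f}) ⊓ E Q := by
      refine ⟨mem_stab_of_le fun v hv => ?_, siegel_mem_E _ _⟩
      obtain ⟨c, rfl⟩ := Submodule.mem_span_singleton.1 hv
      rw [map_smul]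
      apply Submodule.smul_mem
      rw [siegel_apply, polar_add_right, hxe, hxf, h1]
      have e1 : e + f + (0 + 0 : F) • (e - f) - (0 : F) • x - (Q (e - f) * (0 + 0)) • x = e + f := by
        module
      rw [e1]
      exact Submodule.mem_span_singleton_self _
    rw [← heq] at hm
    have h2 := (hm.1 e).1 he
    rw [siegel_apply, hxe, polar_sub_left, hyp.polar_left, hyp.pair'] at h2
    apply hxW
    have h3 := W.sub_mem h2 he
    have e2 : e + (0 : F) • (e - f) - (0 - 1 : F) • x - (Q (e - f) * 0) • x - e = x := by module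
    rwa [e2] at h3
  · intro heq
    have hm : siegel Q x e hQx hxe ∈ stab (Submodule.span F {e + f}) ⊓ E Q := by
      rw [heq]; exact siegel_mem_E _ _
    have h2 := (hm.1 (e + f)).1 (Submodule.mem_span_singleton_self _)
    obtain ⟨c, hc⟩ := Submodule.mem_span_singleton.1 h2
    apply hxW
    rw [siegel_apply, polar_add_right, hxe, hxf, polar_add_right, hyp.polar_left, hyp.pair] at hc
    have e3 : x = e + f - c • (e + f) := by
      rw [hc]; module
    rw [e3]
    exact W.sub_mem (W.add_mem he hfW) (hline c)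

theorem sq_eq_one_of_card_le_three [Fintype F] (hq : Fintype.card F ≤ 3) (a : F) (ha : a ≠ 0) :
    a * a = 1 := by
  have h1 := FiniteField.pow_card_sub_one_eq_one a ha
  have h2 : 1 < Fintype.card F := Fintype.one_lt_card
  have h3 : Fintype.card F = 2 ∨ Fintype.card F = 3 := by omega
  rcases h3 with h | h
  · rw [h] at h1
    have h1' : a = 1 := by simpa using h1
    rw [h1', one_mul]
  · rw [h] at h1
    rw [← pow_two]
    exact h1

/-- **Ready to use.** -/
theorem subspaceStabilizer_hyperbolic_plane_not_maximal {ι : Type} [Fintype ι] [DecidableEq ι]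
    {F : Type*} [Field F] [Fintype F] {Q : (ι → F) → F}
    (hQ : Cfsg.Geo.IsNondegenerateQuadraticForm Q) (hd : 5 ≤ Fintype.card ι)
    (hq : Fintype.card F ≤ 3) (W : Submodule F (ι → F)) (hdim : Module.finrank F W = 2)
    (hW : Cfsg.Geo.IsNondegenerateOn (QuadraticMap.polar Q) W)
    (hWp : Cfsg.Geo.IsPlusTypeOn Q W) :
    ∃ K : Subgroup (Matrix.GeneralLinearGroup ι F),
      Cfsg.Geo.subspaceStabilizer W ⊓ Cfsg.Geo.omegaGL Q < K ∧ K < Cfsg.Geo.omegaGL Q := by
  refine subspaceStabilizer_not_maximal hQ hd W fun Q' hQ' hG => ?_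
  subst hQ'
  obtain ⟨U, hUW, hUs, hU⟩ := hWp
  have hU1 : U ≠ ⊥ := by
    rintro rfl
    rw [finrank_bot] at hU
    omega
  obtain ⟨e, he, he0⟩ := Submodule.exists_mem_ne_zero_of_ne_bot hU1
  exact exists_between hG.nondeg (by rwa [Module.finrank_fintype_fun_eq_card])
    (sq_eq_one_of_card_le_three hq) hdim (ndOn_of_geo hW) (hUW he) he0 (hUs e he)

end Cfsg.Agent.H885.HypPlane
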