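import Cfsg.Agent.H885.Nondeg
import Cfsg.Agent.ClassicalGeometry.Discriminant

/-!
If `V = W ⊥ U` with `U` even-dimensional and some isometry of `V` maps `U` onto `W`, then `V` has a totally
singular subspace of half its dimension (finite field, any characteristic).
-/

set_option autoImplicit false

namespace Cfsg.Agent.H885.MinusType

open QuadraticMap Cfsg.Agent.LieClassical.OrthCore Cfsg.Agent.LieClassical.OrthTrans
  Cfsg.Agent.LieClassical.OrthFinite Cfsg.Agent.H885.RootT
  Cfsg.Agent.H885.Irr Cfsg.Agent.H883.Bridge Cfsg.Agent.H885.Nondeg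

variable {F V : Type*} [Field F] [AddCommGroup V] [Module F V] {Q : QuadraticForm F V}

/-- `V = W ⊥ U`, `g U = W`, `dim U` even: a totally singular subspace of dimension `dim U`. -/
theorem exists_half [Finite F] [Module.Finite F V] (hQ : Nondeg Q) {W U : Submodule F V}
    (h : Split Q W U) {g : V ≃ₗ[F] V} (hg : g ∈ O Q) (hgU : U.map (g : V →ₗ[F] V) = W) {k : ℕ}
    (hk : Module.finrank F U = k) (hke : Even k) :
    ∃ X : Submodule F V, Module.finrank F X = k ∧ ∀ x ∈ X, Q x = 0 := by
  have hgu : ∀ u ∈ U, g u ∈ W := fun u hu => by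
    rw [← hgU]
    exact Submodule.mem_map_of_mem hu
  by_cases h2 : (2 : F) = 0
  · -- characteristic two
    let f : V →ₗ[F] V := LinearMap.id + (g : V →ₗ[F] V)
    refine ⟨U.map f, ?_, ?_⟩
    · have hinj : Function.Injective (f.comp U.subtype) := by
        rw [← LinearMap.ker_eq_bot, eq_bot_iff]
        intro u hu
        have hu' : (u : V) + g u = 0 := LinearMap.mem_ker.1 hu
        have h3 : (u : V) = - g u := eq_neg_of_add_eq_zero_left hu'
        have h4 : (u : V) ∈ W ⊓ U := ⟨by rw [h3]; exact W.neg_mem (hgu u u.2), u.2⟩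
        rw [h.inf hQ, Submodule.mem_bot] at h4
        exact Subtype.ext h4
      have h3 : U.map f = LinearMap.range (f.comp U.subtype) := by
        rw [LinearMap.range_comp, Submodule.range_subtype]
      rw [h3, LinearMap.finrank_range_of_inj hinj, hk]
    · rintro _ ⟨u, hu, rfl⟩
      show Q (u + g u) = 0
      rw [Q_add, mem_O.1 hg, h.perp' hu (hgu u hu), add_zero, ← two_mul, h2, zero_mul]
  · -- odd characteristic
    subst hk
    have hcompl : IsCompl U W := by
      refine ⟨disjoint_iff.2 ?_, codisjoint_iff.2 ?_⟩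
      · rw [inf_comm]; exact h.inf hQ
      · rw [sup_comm]; exact h.sup
    let bU := Module.finBasis F U
    let e : U ≃ₗ[F] W := (g.submoduleMap U).trans (LinearEquiv.ofEq _ _ hgU)
    have he : ∀ u : U, (e u : V) = g u := fun u => rfl
    let bW : Module.Basis (Fin (Module.finrank F U)) F W := bU.map e
    let b : Module.Basis (Fin (Module.finrank F U) ⊕ Fin (Module.finrank F U)) F V :=
      (bU.prod bW).map (Submodule.prodEquivOfIsCompl U W hcompl)
    have hb1 : ∀ i, b (Sum.inl i) = (bU i : V) := by
      intro i
      simp [b]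
    have hb2 : ∀ i, b (Sum.inr i) = g (bU i : V) := by
      intro i
      simp [b, bW, he]
    have hnd : (polarBilin Q).Nondegenerate := by
      refine ⟨fun x hx => hQ x hx, fun x hx => hQ x fun y => ?_⟩
      rw [polar_comm]
      exact hx y
    have hS : LinearMap.BilinForm.IsSymm (polarBilin Q : LinearMap.BilinForm F V) :=
      ⟨fun x y => polar_comm _ _ _⟩
    let A : Matrix (Fin (Module.finrank F U)) (Fin (Module.finrank F U)) F :=
      Matrix.of fun i j => polar Q (bU i : V) (bU j : V)
    have hmat : LinearMap.BilinForm.toMatrix b (polarBilin Q : LinearMap.BilinForm F V) =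
        Matrix.fromBlocks A 0 0 A := by
      ext i j
      rw [LinearMap.BilinForm.toMatrix_apply]
      rcases i with i | i <;> rcases j with j | j
      · rw [hb1, hb1]; rfl
      · rw [hb1, hb2]
        exact h.perp' (bU i).2 (hgu _ (bU j).2)
      · rw [hb1, hb2]
        exact h.perp _ (hgu _ (bU i).2) _ (bU j).2
      · rw [hb2, hb2]
        show polar Q (g _) (g _) = _
        rw [polar_map hg]
        rfl
    have hdet : (LinearMap.BilinForm.toMatrix b (polarBilin Q : LinearMap.BilinForm F V)).det =
        (-1) ^ (Module.finrank F U) * A.det ^ 2 := by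
      rw [hmat, Matrix.det_fromBlocks_zero₂₁, hke.neg_one_pow]
      ring
    have hfr : Module.finrank F V = 2 * Module.finrank F U := by
      have h3 := h.finrank hQ
      rw [← hgU, LinearEquiv.finrank_map_eq g U] at h3
      omega
    obtain ⟨X, hX1, hX2⟩ := Cfsg.Agent.ClassicalGeometry.Discriminant.exists_isotropic_half_of_det h2
      (polarBilin Q : LinearMap.BilinForm F V) hS hnd (Module.finrank F U) hfr b A.det hdet
    refine ⟨X, hX1, fun x hx => ?_⟩
    have h3 : polar Q x x = 0 := hX2 x hx x hx
    rw [polar_self'] at h3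
    rcases mul_eq_zero.1 h3 with h4 | h4
    · exact absurd h4 h2
    · exact h4

end Cfsg.Agent.H885.MinusType
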